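import Cfsg.Agent.H12.CfA
import Cfsg.Agent.H13.Low4

/-! Restriction of scalars for symplectic and unitary spaces. -/

set_option autoImplicit false

namespace Cfsg.Agent.H28

open Module H12 H13 QuadraticMap

variable {F K V : Type*} [Field F] [Field K] [Algebra F K] [AddCommGroup V] [Module F V] [Module K V] [IsScalarTower F K V]
  {τ : K →+* K} {β : V →ₛₗ[τ] V →ₗ[K] K}

theorem exists_CF_trace [Finite K] (D : SD β) (h : ∀ c, τ (algebraMap F K c) = algebraMap F K c) :
    ∃ B : V →ₛₗ[RingHom.id F] V →ₗ[F] F, CF B β (Algebra.trace F K) := by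
  have : Finite F := Finite.of_injective _ (algebraMap F K).injective
  have a3 : ∀ k, Algebra.trace F K (τ k) = Algebra.trace F K k :=
    Algebra.trace_eq_of_algEquiv (AlgEquiv.ofBijective { τ with commutes' := h } (Function.Involutive.bijective D.invol))
  have a4 : ∀ (c : F) (x : V), c • x = algebraMap F K c • x := fun c x => (algebraMap_smul K c x).symm
  refine ⟨LinearMap.mk₂ F (fun x y => Algebra.trace F K (β x y)) (fun _ _ _ => by simp)
    (fun c x y => by rw [a4, LinearMap.map_smulₛₗ₂, h, algebraMap_smul, map_smul])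
    (fun _ _ _ => by simp) (fun c x y => by rw [a4, map_smul, algebraMap_smul, map_smul]),
    ⟨fun _ => rfl, fun x y => ?_, fun x hx => D.sep x fun y => ?_, fun x => ⟨0, ?_⟩⟩, D, fun _ _ => rfl,
    Algebra.trace_ne_zero F K, h⟩
  · simp [D.skew x y, a3]
  · exact (traceForm_nondegenerate F K).1 _ fun k => by simpa [mul_comm] using hx (k • y)
  · obtain ⟨d, hd⟩ := D.trace x
    simp [← hd, a3]

theorem exists_UG_sp [Finite K] [FiniteDimensional K V] (D : SD β) (h : ∀ c, τ (algebraMap F K c) = algebraMap F K c)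
    {m : ℕ} (hm : finrank F K * finrank K V = 2 * m) :
    ∃ φ : UG β →* Matrix.symplecticGroup (Fin m) F, Function.Injective φ := by
  have : Finite F := Finite.of_injective _ (algebraMap F K).injective
  have := Module.Finite.trans (R := F) K V
  obtain ⟨B, hB⟩ := exists_CF_trace D h
  obtain ⟨e⟩ := hB.sd.nonempty_UG_equiv_sp (m := m) (by rw [← hm, finrank_mul_finrank])
  exact ⟨e.toMonoidHom.comp hB.res, fun a b h => UG_ext fun x => by rw [← hB.res_apply, e.injective h, hB.res_apply]⟩

theorem exists_quad [Finite K] (D : SD β) (h1 : τ ≠ RingHom.id K) (h : ∀ a, τ a = a ↔ a ∈ Set.range (algebraMap F K)) :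
    ∃ Q : QuadraticForm F V, ND Q ∧ nz Q = niso β ∧ ∃ φ : UG β →* OG Q, Function.Injective φ := by
  obtain ⟨c, hc0, hc⟩ := exists_skew h1 D.invol
  have a4 : ∀ (c : F) (x : V), c • x = algebraMap F K c • x := fun c x => (algebraMap_smul K c x).symm
  have a5 : ∀ c : F, τ (algebraMap F K c) = algebraMap F K c := fun c => (h _).2 ⟨c, rfl⟩
  choose f hf using fun x => (h (c * β x x)).1 (by rw [map_mul, hc]; linear_combination -c * D.skew x x)
  have hi := (algebraMap F K).injective
  have hp : ∀ x y, algebraMap F K (polar f x y) = c * β x y + c * β y x := fun x y => by simp [polar, hf]; ring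
  let Q : QuadraticForm F V := ofPolar f (fun a x => hi (by rw [a4]; simp [hf, a5, -algebraMap_smul]; ring))
    (fun x x' y => hi (by simp [hp]; ring)) fun a x y => hi (by rw [a4]; simp [hp, a5, -algebraMap_smul]; ring)
  refine ⟨Q, fun x hx => D.sep x fun y => by_contra fun h2 => h1 (RingHom.ext fun k => ?_), ?_,
    MonoidHom.mk' (fun g => ⟨g.1.restrictScalars F, fun x => hi ((hf _).trans ((congrArg _ (UG_map g x x)).trans
      (hf x).symm))⟩) fun _ _ => rfl, fun a b h => UG_ext fun x => congrArg (fun g : OG Q => g.1 x) h⟩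
  · have key : ∀ k, τ k = -k := fun k => by
      have := hp x ((k / (c * β x y)) • y)
      rw [show polar f x _ = 0 from hx _, map_zero, D.skew x (_ • y), map_smul, smul_eq_mul, mul_neg, ← neg_mul, ← hc,
        ← map_mul, mul_left_comm, div_mul_cancel₀ _ (mul_ne_zero hc0 h2)] at this
      linear_combination -this
    have := key 1
    rw [map_one] at this
    rw [key, RingHom.id_apply]; linear_combination -k * this
  · exact Nat.card_congr (Equiv.subtypeEquivRight fun x => by
      rw [← hi.eq_iff, map_zero, show algebraMap F K (Q x) = _ from hf x]; simp [hc0])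

theorem isPlus_iff_of_nz [Finite F] [FiniteDimensional F V] {Q : QuadraticForm F V} (hQ : ND Q) {m : ℕ} (hm : 1 ≤ m)
    (hV : finrank F V = 2 * m) (h : nz Q = guIso (Nat.card F) m + 1) : IsPlus Q ↔ Even m := by
  obtain ⟨m, rfl⟩ := Nat.exists_eq_add_of_le' hm
  have h2 : 2 ≤ Nat.card F := Finite.one_lt_card
  have h3 := hQ.nz_plus (hm := hm) (hV := hV)
  have h4 := hQ.nz_minus (hm := hm) (hV := hV)
  rw [h, guIso, show 2 * (m + 1) - 1 = m + 1 + m by omega, pow_add _ (m + 1) m, Nat.add_sub_cancel, pow_succ] at h3 h4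
  generalize Nat.card F = q at *
  obtain ⟨x, hx⟩ := Nat.exists_eq_add_of_le' (Nat.one_le_pow m q (by omega))
  obtain ⟨q, rfl⟩ := Nat.exists_eq_add_of_le' h2
  rw [hx] at h3 h4
  have e1 : (x + 1) * (q + 2) - 1 = x * q + 2 * x + q + 1 := by rw [Nat.sub_eq_iff_eq_add (by nlinarith)]; ring
  rw [e1, Nat.add_sub_cancel] at h3 h4
  refine ⟨fun a => by_contra fun b => ?_, fun b => by_contra fun a => ?_⟩
  · have := h3 a
    rw [if_neg b, eq_comm, Nat.sub_eq_iff_eq_add (by nlinarith)] at this
    nlinarith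
  · have := h4 a
    rw [if_pos b, eq_comm, Nat.sub_eq_iff_eq_add (by nlinarith)] at this
    nlinarith

theorem exists_GU_quad.{u} {K : Type u} {F : Type*} [Field K] [Fintype K] [Field F] [Fintype F] (hK : Fintype.card K = Fintype.card F ^ 2)
    (m : ℕ) : ∃ (V : Type u) (_ : AddCommGroup V) (_ : Module F V) (_ : FiniteDimensional F V) (Q : QuadraticForm F V),
      ND Q ∧ finrank F V = 2 * m ∧ (1 ≤ m → (IsPlus Q ↔ Even m)) ∧
        ∃ φ : GU m K (Fintype.card F) →* OG Q, Function.Injective φ := by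
  obtain ⟨_, σ, h1, h2, -, h3, -⟩ := exists_quadratic_ext hK
  obtain ⟨Q, h4, h5, φ, h6⟩ := exists_quad (F := F) (sd_uB hK m) (frobq_ne_id hK) fun a => by rw [← h3, h2, frobq_apply]
  have h7 : finrank F (Fin m → K) = 2 * m := by rw [← finrank_mul_finrank F K, h1]; simp
  refine ⟨_, _, _, inferInstance, Q, h4, h7, fun hm => isPlus_iff_of_nz h4 hm h7 ?_,
    φ.comp (guEquiv hK m).toMonoidHom, h6.comp (guEquiv hK m).injective⟩
  rw [h5, (sd_uB hK m).niso_unitary (frobq_ne_id hK), q0_frobq]; simp

end Cfsg.Agent.H28
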