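import Cfsg.Agent.H8.Deg1

/-! Weighted norms of generalized characters of abelian groups (Knörr's criterion). -/

set_option autoImplicit false

namespace Cfsg.Agent.H28

open Finset Cfsg.Agent.H4
open scoped ComplexConjugate

theorem kn_graph {ι : Type*} [Fintype ι] {q : ι → ι → ℝ} {m : ℝ} (hm : 0 ≤ m) (h0 : ∀ i j, 0 ≤ q i j)
    (h1 : ∀ i j, q i j = 0 ∨ m ≤ q i j) (h2 : ∀ i, q i i = 0) (h3 : ∀ i j k, q i k = 0 → q j k = 0 → q i j = 0) :
    ∑ i, ∑ j, q i j = 0 ∨ 2 * ((Fintype.card ι : ℝ) - 1) * m ≤ ∑ i, ∑ j, q i j := by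
  classical
  by_cases h : ∀ i j, q i j = 0
  · exact Or.inl (by simp [h])
  push Not at h
  obtain ⟨i0, j0, h⟩ := h
  let T := univ.filter fun k => q k i0 = 0
  have a1 : ∀ k ∈ T, ∀ l ∈ Tᶜ, m ≤ q k l ∧ m ≤ q l k := fun k hk l hl => by
    simp only [T, mem_compl, mem_filter, mem_univ, true_and] at hk hl
    have := h3 _ _ _ (h2 i0) hk
    exact ⟨(h1 _ _).resolve_left fun e => hl (h3 _ _ _ (h3 _ _ _ (h2 l) e) this),
      (h1 _ _).resolve_left fun e => hl (h3 _ _ _ e this)⟩
  have a2 : (1 : ℝ) ≤ T.card := by exact_mod_cast card_pos.2 ⟨i0, by simp [T, h2]⟩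
  have a3 : (1 : ℝ) ≤ Tᶜ.card := by
    exact_mod_cast card_pos.2 ⟨j0, by simpa [T] using fun e => h (h3 _ _ _ (h2 i0) e)⟩
  have a4 : (T.card : ℝ) + Tᶜ.card = Fintype.card ι := by exact_mod_cast card_add_card_compl T
  have a5 : ∀ S : Finset ι, (∀ k ∈ S, ∀ l ∈ Sᶜ, m ≤ q k l) → S.card * (Sᶜ.card * m) ≤ ∑ i ∈ S, ∑ j, q i j :=
    fun S hS => by
      rw [← nsmul_eq_mul, ← nsmul_eq_mul]
      exact card_nsmul_le_sum _ _ _ fun k hk => (card_nsmul_le_sum _ _ _ (hS k hk)).trans
        (sum_le_sum_of_subset_of_nonneg (subset_univ _) fun l _ _ => h0 k l)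
  have a6 := a5 T fun k hk l hl => (a1 k hk l hl).1
  have a7 := a5 Tᶜ fun k hk l hl => (a1 l (by simpa using hl) k hk).2
  rw [compl_compl] at a7
  rw [← sum_add_sum_compl T, ← a4]
  refine Or.inr ?_
  nlinarith [mul_nonneg (mul_nonneg (sub_nonneg.2 a2) (sub_nonneg.2 a3)) hm]

theorem kn_real {ι : Type*} [Fintype ι] (x : ι → ℝ) :
    ∑ i, ∑ j, (x i - x j) ^ 2 = 2 * (Fintype.card ι * ∑ i, x i ^ 2 - (∑ i, x i) ^ 2) := by
  simp only [sub_sq, sum_add_distrib, sum_sub_distrib, sum_const, card_univ, nsmul_eq_mul, ← mul_sum, ← sum_mul]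
  ring

theorem kn_cx {ι : Type*} [Fintype ι] (x : ι → ℂ) :
    ∑ i, ∑ j, ‖x i - x j‖ ^ 2 = 2 * (Fintype.card ι * ∑ i, ‖x i‖ ^ 2 - ‖∑ i, x i‖ ^ 2) := by
  have h : ∀ z : ℂ, ‖z‖ ^ 2 = z.re ^ 2 + z.im ^ 2 := fun z => by rw [Complex.sq_norm, Complex.normSq_apply]; ring
  simp only [h, sum_add_distrib, Complex.sub_re, Complex.sub_im, kn_real, Complex.re_sum, Complex.im_sum]
  ring

/-- A weighted norm. -/
noncomputable def wq {A : Type*} [Fintype A] (w : A → ℝ) (f : A → ℂ) : ℝ := ∑ a, w a * ‖f a‖ ^ 2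

/-- The nonzero weighted norms of generalized characters are at least `m`. -/
def WM (A : Type*) [Group A] [Fintype A] (w : A → ℝ) (m : ℝ) : Prop :=
  (∀ a b : A, a * b = b * a) ∧ (∀ a, 0 ≤ w a) ∧
    ∀ f, IsGeneralizedCharacter A f → wq w f = 0 ∨ m ≤ wq w f

variable {A B : Type*} [Group A] [Fintype A] [Group B] [Fintype B] {w : A → ℝ} {m : ℝ}

omit [Group A] in
theorem wq_eq_zero (hw : ∀ a, 0 ≤ w a) {f : A → ℂ} : wq w f = 0 ↔ ∀ a, w a = 0 ∨ f a = 0 := by
  rw [wq, sum_eq_zero_iff_of_nonneg fun a _ => mul_nonneg (hw a) (sq_nonneg _)]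
  simp

omit [Fintype A] in
theorem kn_class (h : ∀ a b : A, a * b = b * a) (f : A → ℂ) : IsClassFunction A f := fun g x => by
  rw [h x g, mul_inv_cancel_right]

theorem WM.unit : WM PUnit (fun _ => 1) 1 := by
  refine ⟨fun _ _ => rfl, fun _ => zero_le_one, fun f hf => ?_⟩
  obtain ⟨n, hn⟩ := hf.exists_degree
  have : wq (fun _ => 1) f = (n : ℝ) ^ 2 := by
    rw [wq, Fintype.sum_unique, show (default : PUnit) = 1 from rfl, hn]; simp
  rw [this]
  rcases eq_or_ne n 0 with rfl | h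
  · simp
  · exact Or.inr (by exact_mod_cast (one_le_sq_iff_one_le_abs n).2 (Int.one_le_abs h))

open Classical in
theorem WM.prod (h : WM A w m) (hm : 0 ≤ m) (hB : ∀ a b : B, a * b = b * a) (e : ℕ) :
    WM (A × B) (fun x => w x.1 * if x.2 = 1 then (e : ℝ) else Fintype.card B + e)
      (Fintype.card B * (Fintype.card B + e - 1) * m) := by
  refine ⟨fun a b => Prod.ext (h.1 _ _) (hB _ _), fun x => mul_nonneg (h.2.1 _) (by split_ifs <;> positivity),
    fun f hf => ?_⟩
  let x : IrrCharacter B ⊕ Fin e → A → ℂ := Sum.elim (fun μ a => classInner (fun b => f (a, b)) μ) 0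
  have n0 : (0 : ℝ) < Fintype.card B := by exact_mod_cast Fintype.card_pos
  have a1 : ∀ i, IsGeneralizedCharacter A (x i) := by
    rintro (μ | i)
    · refine (kn_class h.1 _).isGen_of_int fun χ hχ => ?_
      obtain ⟨k, hk⟩ := hf.classInner_int ((hχ.isCharacter.comp (MonoidHom.fst A B)).mul
        (μ.2.isCharacter.comp (MonoidHom.snd A B))).isGen
      refine ⟨k, hk ▸ ?_⟩
      simp only [x, Sum.elim_inl, classInner_def, Nat.card_prod, Fintype.sum_prod_type, Pi.mul_apply, mul_sum,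
        sum_mul, MonoidHom.coe_fst, MonoidHom.coe_snd, map_mul]
      exact sum_congr rfl fun a _ => sum_congr rfl fun b _ => by push_cast; ring
    · exact isGen_zero
  have a2 : ∀ a, 2 * ∑ b, (if b = 1 then e else Fintype.card B + e : ℝ) * ‖f (a, b)‖ ^ 2 =
      Fintype.card B * ∑ i, ∑ j, ‖x i a - x j a‖ ^ 2 := fun a => by
    have b1 := congrArg Complex.re ((kn_class hB fun b => f (a, b)).classInner_eq_sum fun b => f (a, b))
    have b2 := (kn_class hB fun b => f (a, b)).apply_eq_sum 1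
    simp only [classInner_self_re, Complex.re_sum, Complex.mul_conj, Complex.ofReal_re, Complex.normSq_eq_norm_sq,
      Nat.card_eq_fintype_card] at b1
    simp only [comm_iff_forall_irr_degree_one.1 hB, mul_one] at b2
    have b3 : ∀ b : B, (if b = 1 then e else Fintype.card B + e : ℝ) * ‖f (a, b)‖ ^ 2 =
        (Fintype.card B + e) * ‖f (a, b)‖ ^ 2 - if b = 1 then Fintype.card B * ‖f (a, b)‖ ^ 2 else 0 := fun b => by
      split_ifs <;> ring
    rw [kn_cx (fun i => x i a), Fintype.card_sum, Fintype.card_fin, ← Nat.card_eq_fintype_card (α := IrrCharacter B),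
      card_irr_of_comm hB, Nat.card_eq_fintype_card]
    simp only [b3, sum_sub_distrib, sum_ite_eq', mem_univ, if_true, ← mul_sum, x, Fintype.sum_sum_type, Sum.elim_inl,
      Sum.elim_inr, Pi.zero_apply, ← b1, ← b2]
    simp only [norm_zero, sum_const, smul_zero, add_zero, ne_eq, OfNat.ofNat_ne_zero, not_false_eq_true, zero_pow]
    push_cast
    field_simp
  have a3 : 2 * wq (fun x : A × B => w x.1 * if x.2 = 1 then (e : ℝ) else Fintype.card B + e) f =
      Fintype.card B * ∑ i, ∑ j, wq w (x i - x j) := by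
    simp only [wq, Fintype.sum_prod_type, Pi.sub_apply]
    rw [mul_sum, sum_comm (s := (univ : Finset (IrrCharacter B ⊕ Fin e)))]
    conv_rhs => enter [2, 2, j]; rw [sum_comm]
    rw [sum_comm (s := (univ : Finset (IrrCharacter B ⊕ Fin e))), mul_sum]
    refine sum_congr rfl fun a _ => ?_
    simp only [mul_assoc, ← mul_sum]
    rw [mul_left_comm, a2, sum_comm, mul_left_comm]
  rcases kn_graph (q := fun i j => wq w (x i - x j)) hm
    (fun _ _ => sum_nonneg fun a _ => mul_nonneg (h.2.1 a) (sq_nonneg _)) (fun i j => h.2.2 _ ((a1 i).sub (a1 j)))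
    (fun i => by simp [wq]) (fun i j k h1 h2 => by
      rw [wq_eq_zero h.2.1] at h1 h2 ⊢
      exact fun a => (h1 a).elim Or.inl fun e1 => (h2 a).imp_right fun e2 => by
        simp only [Pi.sub_apply] at e1 e2 ⊢; linear_combination e1 - e2) with a4 | a4
  · exact Or.inl (by rw [a4] at a3; linarith)
  · rw [Fintype.card_sum, Fintype.card_fin, ← Nat.card_eq_fintype_card (α := IrrCharacter B),
      card_irr_of_comm hB, Nat.card_eq_fintype_card] at a4
    push_cast at a4
    exact Or.inr (by nlinarith [mul_le_mul_of_nonneg_left a4 n0.le])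

theorem WM.comap (h : WM A w m) (j : B →* A) (hj : Function.Injective j) :
    WM B (fun b => w (j b)) ((Fintype.card B / Fintype.card A) ^ 2 * m) := by
  refine ⟨fun a b => hj (by simp [h.1 (j a)]), fun _ => h.2.1 _, fun f hf => ?_⟩
  have nA : (0 : ℝ) < Fintype.card A := by exact_mod_cast Fintype.card_pos
  have nB : (0 : ℝ) < Fintype.card B := by exact_mod_cast Fintype.card_pos
  let F : A → ℂ := fun a => ((Fintype.card A / Fintype.card B : ℝ) : ℂ) * Function.extend j f 0 a
  have a0 : ∀ a ∉ Set.range j, F a = 0 := fun a ha => by simp [F, Function.extend_apply' _ _ _ ha]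
  have a1 : ∀ b, F (j b) = ((Fintype.card A / Fintype.card B : ℝ) : ℂ) * f b := fun b => by simp [F, hj.extend_apply]
  have a2 : IsGeneralizedCharacter A F := (kn_class h.1 _).isGen_of_int fun χ hχ => by
    obtain ⟨k, hk⟩ := hf.classInner_int (hχ.isCharacter.comp j).isGen
    refine ⟨k, hk ▸ ?_⟩
    rw [classInner_def, classInner_def, ← Fintype.sum_of_injective j hj (fun b => F (j b) * conj (χ (j b))) _
      (fun a ha => by rw [a0 a ha, zero_mul]) fun _ => rfl]
    have : (Fintype.card A : ℂ) ≠ 0 := by exact_mod_cast Fintype.card_ne_zero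
    simp only [a1, mul_assoc, ← mul_sum, Nat.card_eq_fintype_card]
    push_cast
    field_simp
  have a3 : wq w F = (Fintype.card A / Fintype.card B) ^ 2 * wq (fun b => w (j b)) f := by
    rw [wq, wq, ← Fintype.sum_of_injective j hj (fun b => w (j b) * ‖F (j b)‖ ^ 2) _
      (fun a ha => by simp [a0 a ha]) fun _ => rfl, mul_sum]
    exact sum_congr rfl fun b _ => by rw [a1, norm_mul, mul_pow, Complex.norm_real, Real.norm_eq_abs, sq_abs]; ring
  refine (h.2.2 F a2).imp (fun e => ?_) fun e => ?_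
  · rw [a3] at e
    exact (mul_eq_zero.1 e).resolve_left (by positivity)
  · rw [a3] at e
    refine (mul_le_mul_of_nonneg_left e (by positivity)).trans (le_of_eq ?_)
    field_simp

end Cfsg.Agent.H28
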