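import Cfsg.Agent.H28.OField

/-! Field automorphisms of `PΩ⁺`, given normality of the inner-diagonal group. -/

set_option autoImplicit false

namespace Cfsg.Agent.H28

open Module H13 H13.SemiSim

lemma normal_inndiagPlus {F : Type*} [Field F] [Finite F] {m : ℕ} (hm : 5 ≤ m) :
    (inndiagPOmegaPlus m F).Normal := by
  have h := ev_QPlus (F := F) (m := m) (by omega)
  rw [inndiagPlus_eq h]
  exact h.normal_Sp.map _ (aut_surjective h.nd (by rw [h.dim]; omega) (by rw [h.dim]; omega))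

theorem fieldPlus_of_normal {F : Type*} [Field F] [Fintype F] {p f : ℕ} [Fact p.Prime]
    (hF : Fintype.card F = p ^ f) {m : ℕ} (hm : 3 ≤ m) (hN : (inndiagPOmegaPlus m F).Normal)
    (x : MulAut (POmega F (quadFormPlus m F))) (hx : IsFieldAutClassPOmega (quadFormPlus m F) x)
    {r : ℕ} (hr : r.Prime) (hxr : orderOf x = r) (F₀ : Type*) [Field F₀] [Fintype F₀]
    (hF₀ : Fintype.card F₀ = p ^ (f / r)) :
    r ∣ f ∧ Nonempty (↥(inndiagPOmegaPlus m F ⊓ Subgroup.centralizer {x}) ≃*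
      ↥(inndiagPOmegaPlus m F₀)) ∧
    ((Odd r ∨ p = 2) → splitClassCount (inndiagPOmegaPlus m F)
      (Inn (POmega F (quadFormPlus m F))) x = 1) ∧
    ((r = 2 ∧ p ≠ 2 ∧ Odd m ∧ p ^ (f / 2) % 4 = 1) → splitClassCount (inndiagPOmegaPlus m F)
      (Inn (POmega F (quadFormPlus m F))) x = 2) ∧
    ((r = 2 ∧ p ≠ 2 ∧ ¬ (Odd m ∧ p ^ (f / 2) % 4 = 1)) → splitClassCount (inndiagPOmegaPlus m F)
      (Inn (POmega F (quadFormPlus m F))) x = 4) := by
  have h := ev_QPlus (F := F) (m := m) hm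
  have h₀ := ev_QPlus (F := F₀) (m := m) hm
  have hk := ker_aut h.nd h.five
  have : Nonempty (Fin m ⊕ Fin m) := ⟨.inl ⟨0, by omega⟩⟩
  obtain ⟨α, φ, σ, hσ, e1, e2⟩ := hx
  have e3 : ∀ v, QPlus m F (fun i => σ (v i)) = σ (QPlus m F v) := fun v => by simp [QPlus_apply]
  have e4 := e2.trans ((isFieldAut_iff e3).1 e1)
  have e5 := infCentralizerConj (inndiagPOmegaPlus m F) α x
  rw [← splitClassCount_conj _ _ α x]
  rw [← orderOf_conj' α] at hxr
  rw [e4] at hxr e5 ⊢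
  obtain ⟨rfl, -⟩ := orderOf_σ hk hr (hxr ▸ pow_orderOf_eq_one _) hσ
  obtain ⟨h1, h2⟩ := card_fixF hF σ
  obtain ⟨j, hj⟩ := exists_ringHom_range_fixF σ F₀ (by rw [h2, Nat.card_eq_fintype_card]; exact hF₀)
  have h3 : ∀ v, (coord σ e3).e ((descPlus m j).J v) = (descPlus m j).J v := fun v =>
    funext fun i => (hj _).1 ⟨v i, rfl⟩
  obtain ⟨h5⟩ := (descPlus m j).centralizer_equiv h.nd hk (ker_aut h₀.nd h₀.five) h3 hj
    h.Sp_le h.scalar_mem_Sp h₀.Sp_le fun u => by rw [h.mem_Sp, h₀.mem_Sp, h.dk_E h₀]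
  have := charP_of_card hF
  have h4 : Odd (orderOf σ) ∨ p = 2 → _ := fun hp => (descPlus m j).split_of_odd h hk h3 hj
    (hp.imp_right (by rintro rfl; exact CharP.cast_eq_zero F 2))
  have h6 : p ≠ 2 → Odd (Fintype.card F₀) := fun hp =>
    hF₀ ▸ ((Fact.out : p.Prime).odd_of_ne_two hp).pow
  have h7 : p ≠ 2 → orderOf σ = 2 → _ := fun hp ho => (descPlus m j).split_of_two h hk (by
    rw [← map_ofNat j, map_ne_zero]; exact two_ne_zero_of_odd_card (h6 hp)) (by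
      have l1 := card_eq_pow_of_fix hj
      simp only [ho, Nat.card_eq_fintype_card] at l1
      obtain ⟨n, hn⟩ := h6 hp
      rw [disc_QPlus_eq_one_iff (l1 ▸ (h6 hp).pow), l1, hn,
        show (2 * n + 1) ^ 2 = 1 + 4 * (n * n + n) by ring]
      omega) h3 hj ho
  have h8 : p ≠ 2 → orderOf σ = 2 → ((-1) ^ m * disc (QPlus m F₀) = 1 ↔
      ¬ (Odd m ∧ p ^ (f / 2) % 4 = 1)) := fun hp ho => by
    have l1 := disc_QPlus_eq_one_iff (m := m) (h6 hp)
    have l2 := Nat.odd_iff.1 (h6 hp)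
    rw [← ho, ← show _ = p ^ (f / orderOf σ) from hF₀]
    rcases Nat.even_or_odd m with l | l
    · simp [l.neg_one_pow, l1, Nat.not_odd_iff_even.2 l]
    · rw [l.neg_one_pow, neg_one_mul, neg_eq_iff_eq_neg, and_iff_right l,
        ← not_iff_not, ← Ne, Int.units_ne_iff_eq_neg, neg_neg, l1, and_iff_right l]
      omega
  rw [← inn_eq_ZΩ h.nd h.five, ← inndiagPlus_eq h] at h4 h7
  rw [← inndiagPlus_eq h, ← inndiagPlus_eq h₀] at h5
  exact ⟨h1, ⟨e5.trans h5⟩, h4,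
    fun e => (h7 e.2.1 e.1).trans (if_neg fun l => (h8 e.2.1 e.1).1 l e.2.2),
    fun e => (h7 e.2.1 e.1).trans (if_pos ((h8 e.2.1 e.1).2 e.2.2))⟩

end Cfsg.Agent.H28
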