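import Mathlib

set_option autoImplicit false

namespace Cfsg.Agent.H28

section Shintani
variable {X : Type*} [Group X]

lemma mem_fix_iff (σ : MulAut X) (x : X) :
    x ∈ (MulEquiv.toMonoidHom σ).eqLocus (MonoidHom.id X) ↔ σ x = x := Iff.rfl

lemma autPow_comm (σ : MulAut X) (e : ℕ) (x : X) : (σ ^ e) (σ x) = σ ((σ ^ e) x) := by
  rw [← MulAut.mul_apply, ← MulAut.mul_apply, ← pow_succ, ← pow_succ']

lemma autPow_fix (σ : MulAut X) (e : ℕ) (x : X) (h : σ x = x) : (σ ^ e) x = x := by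
  induction e with
  | zero => simp
  | succ n ih => rw [pow_succ, MulAut.mul_apply, h, ih]

lemma norm_telescope (σ : MulAut X) (a : X) (d : ℕ) :
    ((List.range d).map (fun i => (σ ^ i) (a * (σ a)⁻¹))).prod = a * ((σ ^ d) a)⁻¹ := by
  induction d with
  | zero => simp
  | succ n ih =>
    rw [List.range_succ, List.map_append, List.prod_append, ih]
    simp [pow_succ, mul_assoc]

lemma shintani_fix (σ : MulAut X) (e : ℕ) (a : X) (hg : (σ ^ e) (a * (σ a)⁻¹) = a * (σ a)⁻¹) :
    σ (((σ ^ e) a)⁻¹ * a) = ((σ ^ e) a)⁻¹ * a := by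
  rw [map_mul, map_inv, autPow_comm] at hg
  rw [map_mul, map_inv]
  have : (σ ((σ ^ e) a))⁻¹ = ((σ ^ e) a)⁻¹ * (a * (σ a)⁻¹) := by rw [← hg]; group
  rw [this]; group

/-- counting pairs in a relation with fibres all equivalent to one type -/
lemma card_rel_eq {α β γ : Type*} (R : α → β → Prop) (h : ∀ a, Nonempty ({b // R a b} ≃ γ)) :
    Nat.card {p : α × β // R p.1 p.2} = Nat.card α * Nat.card γ := by
  rw [← Nat.card_prod]
  refine Nat.card_congr ?_
  refine (Equiv.subtypeProdEquivSigmaSubtype R).trans ?_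
  refine (Equiv.sigmaCongrRight fun a => (h a).some).trans (Equiv.sigmaEquivProd α γ)

end Shintani

end Cfsg.Agent.H28
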