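import Cfsg.Agent.H28.TwA
import Cfsg.Agent.H28.TwD
import Cfsg.Agent.H13.Low4
import Cfsg.Agent.H13.Dih
import Cfsg.Agent.H13.PermMod

/-! Irreducible characters whose degree is the order of a Sylow subgroup; the small orthogonal groups. -/

set_option autoImplicit false

namespace Cfsg.Agent.H28

open Cfsg.Agent.H13 Module
open scoped commutatorElement MatrixGroups

/-- there is an irreducible character of degree `|G|_p` -/
def HasSt (p : ℕ) (G : Type*) [Group G] : Prop :=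
  ∃ χ : G → ℂ, IsIrrCharacter G χ ∧ χ 1 = (p ^ (Nat.card G).factorization p : ℕ)

section
variable {p : ℕ} [hp : Fact p.Prime] {G G' : Type*} [Group G] [Group G']

theorem HasSt.out [Finite G] (h : HasSt p G) : ∃ χ : G → ℂ, IsIrrCharacter G χ ∧ ∀ S : Sylow p G, χ 1 = Nat.card S ∧
    ∀ x : G, x ∈ S → x ≠ 1 → χ x = 0 := by
  obtain ⟨χ, h1, h2⟩ := h
  refine ⟨χ, h1, fun S => ⟨by rw [h2, S.card_eq_multiplicity], fun x hx h => ?_⟩⟩
  refine H6.apply_eq_zero_of_defect_zero hp.out h1 (by rw [H4.charDegree_eq_of h2, hp.out.factorization_pow]; simp) ?_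
  obtain ⟨k, hk⟩ := IsPGroup.iff_orderOf.1 S.2 ⟨x, hx⟩
  rw [Subgroup.orderOf_mk] at hk
  exact hk ▸ dvd_pow_self p (by rintro rfl; exact h (by simpa using hk))

theorem IsSBN.hasSt [Finite G] (h : IsSBN p G) : HasSt p G := by
  obtain ⟨X⟩ := h.nonempty
  obtain ⟨χ, h1, h2⟩ := X.exists_st
  obtain ⟨S⟩ : Nonempty (Sylow p G) := inferInstance
  exact ⟨χ, h1, by rw [(h2 S).1, S.card_eq_multiplicity]⟩

omit hp in
theorem HasSt.of_equiv (h : HasSt p G) (e : G' ≃* G) : HasSt p G' := by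
  obtain ⟨χ, h1, h2⟩ := h
  exact ⟨_, H4.Cfsg.IsIrrCharacter.comp_equiv h1 e, by rw [map_one, h2, Nat.card_congr e.toEquiv]⟩

theorem HasSt.of_surj [Finite G'] (h : HasSt p G) (f : G' →* G) (hf : Function.Surjective f)
    (hk : ∀ x, f x = 1 → orderOf x ≠ p) : HasSt p G' := by
  obtain ⟨χ, h1, h2⟩ := h
  have := Finite.of_surjective f hf
  refine ⟨_, H4.Cfsg.IsIrrCharacter.comp_of_surjective h1 f hf, ?_⟩
  have h3 : ¬ p ∣ Nat.card f.ker := fun h => by
    obtain ⟨x, hx⟩ := exists_prime_orderOf_dvd_card' p h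
    exact hk x x.2 (by rwa [Subgroup.orderOf_coe])
  rw [map_one, h2, ← f.ker.card_mul_index, Subgroup.index_ker, f.range_eq_top_of_surjective hf, Subgroup.card_top,
    Nat.factorization_mul Nat.card_pos.ne' Nat.card_pos.ne', Finsupp.add_apply, Nat.factorization_eq_zero_of_not_dvd h3,
    zero_add]

omit hp in
theorem HasSt.prod [Finite G] [Finite G'] (h : HasSt p G) (h' : HasSt p G') : HasSt p (G × G') := by
  obtain ⟨χ, h1, h2⟩ := h
  obtain ⟨ψ, h3, h4⟩ := h'
  refine ⟨_, H4.Cfsg.IsIrrCharacter.prod h1 h3, ?_⟩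
  rw [Prod.fst_one, Prod.snd_one, h2, h4, Nat.card_prod, Nat.factorization_mul Nat.card_pos.ne' Nat.card_pos.ne']
  simp [pow_add]

omit hp in
theorem hasSt_of_comm (h : ∀ a b : G, a * b = b * a) : HasSt p (G ⧸ Subgroup.center G) := by
  have : Subsingleton (G ⧸ Subgroup.center G) := ⟨fun a b => by
    obtain ⟨a, rfl⟩ := QuotientGroup.mk_surjective a
    obtain ⟨b, rfl⟩ := QuotientGroup.mk_surjective b
    exact QuotientGroup.eq.2 (Subgroup.mem_center_iff.2 fun g => h _ _)⟩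
  refine ⟨_, H4.isIrrCharacter_one, ?_⟩
  rw [Nat.card_of_subsingleton (1 : G ⧸ Subgroup.center G)]; simp

omit hp in
theorem hasSt_of_dihedral {n : ℕ} (e : G ≃* DihedralGroup n) :
    HasSt p (commutator G ⧸ Subgroup.center (commutator G)) := by
  refine (hasSt_of_comm fun a b => ?_).of_equiv (centerQuotEquiv (commutatorEquiv e))
  let R : Subgroup (DihedralGroup n) :=
    { carrier := Set.range DihedralGroup.r
      one_mem' := ⟨0, rfl⟩
      mul_mem' := by rintro _ _ ⟨i, rfl⟩ ⟨j, rfl⟩; exact ⟨i + j, rfl⟩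
      inv_mem' := by rintro _ ⟨i, rfl⟩; exact ⟨-i, rfl⟩ }
  have h : commutator (DihedralGroup n) ≤ R := Subgroup.commutator_le.2 fun g _ h _ => by
    rcases g with i | i <;> rcases h with j | j <;> exact ⟨_, rfl⟩
  obtain ⟨i, hi⟩ := h a.2
  obtain ⟨j, hj⟩ := h b.2
  apply Subtype.ext
  simp [← hi, ← hj, add_comm]

end

variable {F : Type*} [Field F] [Fintype F]

theorem hasSt_detQ_two (hF : Fintype.card F = 2) : HasSt 2 (POm (detQ F)) := by
  classical
  have : CharP F 2 := by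
    obtain ⟨p, hp⟩ := CharP.exists F
    obtain ⟨n, h1, h2⟩ := FiniteField.card F p
    have : p ∣ 2 := hF ▸ h2 ▸ dvd_pow_self p n.ne_zero
    rwa [← (Nat.prime_dvd_prime_iff_eq h1 Nat.prime_two).1 this]
  have := finite_OG (detQ F)
  obtain ⟨e⟩ := nonempty_SL2_two hF
  have hz : ∀ x ∈ Subgroup.center SL(2, F), x = 1 := fun x hx => e.injective (by
    have : ∀ y : Equiv.Perm (Fin 3), (∀ z, z * y = y * z) → y = 1 := by decide
    rw [map_one]
    refine this _ fun z => ?_
    obtain ⟨z, rfl⟩ := e.surjective z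
    rw [← map_mul, Subgroup.mem_center_iff.1 hx, map_mul])
  let ψ := sl2sl2 F
  have hψ : Function.Injective ψ := (injective_iff_map_eq_one _).mpr fun g hg => by
    have h1 := (sl2sl2_eq_iff g).mp (.inl hg)
    rw [Subgroup.center_prod] at h1
    exact Prod.ext (hz _ h1.1) (hz _ h1.2)
  let t : OG (detQ F) := ⟨Matrix.transposeLinearEquiv _ _ _ _, fun X => by simp [detQ_apply, mul_comm]⟩
  have ht : ∀ x, t * ψ x = ψ x.swap * t := fun x => OG_ext fun X => by
    simp [ψ, sl2sl2_apply, t, Matrix.transpose_mul, Matrix.mul_assoc]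
  have ht' : ∀ x z, t * (ψ x * z) = ψ x.swap * (t * z) := fun x z => by rw [← mul_assoc, ht, mul_assoc]
  have tt : t⁻¹ = t := inv_eq_of_mul_eq_one_left (OG_ext fun X => rfl)
  have tt' : t * t = 1 := OG_ext fun X => rfl
  have hi : ψ.range.index = 2 := by
    have h1 := ψ.range.card_mul_index
    rw [nd_detQ.card_OG_plus isPlus_detQ (m := 2) (by simp) finrank_M2, ← Nat.card_congr (MonoidHom.ofInjective hψ).toEquiv,
      Nat.card_prod, H12.card_SL2 (q := 2) hF, Nat.card_eq_fintype_card, hF] at h1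
    simp at h1
    omega
  have htn : t ∉ ψ.range := by
    rintro ⟨x, hx⟩
    obtain ⟨a, ha⟩ := e.surjective (Equiv.swap 0 1)
    have := ht (a, 1)
    rw [← hx, ← map_mul, ← map_mul] at this
    have h1 : x.1 * a = 1 * x.1 := congrArg Prod.fst (hψ this)
    rw [one_mul, mul_eq_left] at h1
    rw [h1, map_one] at ha
    exact absurd ha (by decide)
  have hd : ∀ g, ∃ x, g = ψ x ∨ g = ψ x * t := fun g => by
    by_cases h : g ∈ ψ.range
    · exact h.imp fun x hx => .inl hx.symm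
    · obtain ⟨x, hx⟩ := (Subgroup.mul_mem_iff_of_index_two hi (a := g) (b := t)).2 (iff_of_false h htn)
      exact ⟨x, .inr (by rw [hx, mul_assoc, tt', mul_one])⟩
  let s : SL(2, F) →* ℤˣ := Equiv.Perm.sign.comp e.toMonoidHom
  have hK : Om (detQ F) ≤ (s.coprod s).ker.map ψ := Subgroup.commutator_le.2 fun g _ h _ => by
    obtain ⟨x, rfl | rfl⟩ := hd g <;> obtain ⟨y, rfl | rfl⟩ := hd h
    · exact ⟨⁅x, y⁆, by simp [commutatorElement_def, mul_comm, mul_left_comm], by simp [commutatorElement_def]⟩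
    · refine ⟨x * y * x⁻¹.swap * y⁻¹, by simp [mul_comm, mul_left_comm], ?_⟩
      simp only [commutatorElement_def, mul_inv_rev, tt, ← map_inv, mul_assoc, ht', ht, map_mul, tt', mul_one]
      simp
    · refine ⟨x * y.swap * x⁻¹ * y⁻¹, by simp [mul_comm, mul_left_comm], ?_⟩
      simp only [commutatorElement_def, mul_inv_rev, tt, mul_assoc, ht', map_mul, map_inv]
      rw [← mul_assoc t t, tt', one_mul]
    · refine ⟨x * y.swap * x⁻¹.swap * y⁻¹, by simp [mul_comm, mul_left_comm], ?_⟩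
      simp only [commutatorElement_def, mul_inv_rev, tt, ← map_inv, mul_assoc, ht', ht, map_mul, tt', mul_one]
      simp
  let f : Om (detQ F) →* SL(2, F) := (MonoidHom.fst _ _).comp ((MonoidHom.ofInjective hψ).symm.toMonoidHom.comp
    (Subgroup.inclusion (hK.trans (Subgroup.map_le_range _ _))))
  have hf : ∀ x (h : ψ x ∈ Om (detQ F)), f ⟨ψ x, h⟩ = x.1 := fun x h =>
    congrArg Prod.fst ((MonoidHom.ofInjective hψ).symm_apply_eq.2 rfl)
  have hs : Function.Surjective f := fun a => ⟨⟨ψ (a, a⁻¹), by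
    have := Subgroup.commutator_mem_commutator (Subgroup.mem_top (ψ (a, 1))) (Subgroup.mem_top t)
    rw [commutatorElement_def, ← map_inv, mul_assoc (ψ _), ht, tt, mul_assoc, mul_assoc, tt', mul_one, ← map_mul] at this
    simpa [commutator_def] using this⟩, hf _ _⟩
  refine (isSBN_SL F 2 le_rfl).hasSt.of_surj (QuotientGroup.lift _ f fun x hx => hz _ (Subgroup.mem_center_iff.2 fun a => ?_))
    (fun a => (hs a).elim fun x hx => ⟨x, hx⟩) fun x hx h2 => ?_
  · obtain ⟨y, rfl⟩ := hs a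
    rw [← map_mul, Subgroup.mem_center_iff.1 hx, map_mul]
  obtain ⟨⟨x, hx'⟩, rfl⟩ := QuotientGroup.mk_surjective x
  obtain ⟨y, hy, rfl⟩ := hK hx'
  have h1 : y.1 = 1 := (hf y hx').symm.trans hx
  have h3 : y ^ 3 = 1 := Prod.ext (by simp [h1]) (e.injective (by
    have : ∀ z : Equiv.Perm (Fin 3), Equiv.Perm.sign z = 1 → z ^ 3 = 1 := by decide
    simpa using this (e y.2) (by simpa [h1, s] using hy)))
  have h4 : (QuotientGroup.mk ⟨ψ y, hx'⟩ : POm (detQ F)) ^ 3 = 1 := by
    rw [← QuotientGroup.mk_pow, show (⟨ψ y, hx'⟩ : Om (detQ F)) ^ 3 = 1 from Subtype.ext (by simp [← map_pow, h3])]; rfl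
  exact absurd (h2 ▸ orderOf_dvd_of_pow_eq_one h4) (by decide)

end Cfsg.Agent.H28
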