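import Cfsg.Prelude.Def_JordanBlocks
import Cfsg.Agent.H28.Spec2

/-! Orders of centralisers of unipotent elements of general linear groups. -/

set_option autoImplicit false

namespace Cfsg.Agent.H28

open Polynomial Module MulAction

variable {F : Type*} [Field F] {V W : Type*} [AddCommGroup V] [Module F V] [AddCommGroup W] [Module F W]

/-- automorphisms commuting with an endomorphism -/
def centE (a : End F V) : Subgroup (V ≃ₗ[F] V) where
  carrier := {e | ∀ v, e (a v) = a (e v)}
  one_mem' _ := rfl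
  mul_mem' {x y} hx hy v := by rw [LinearEquiv.mul_apply, hy, hx]; rfl
  inv_mem' {x} hx v := x.injective (by rw [hx]; simp)

theorem Sim.card_centE {a : End F V} {b : End F W} (h : Sim a b) : Nat.card (centE a) = Nat.card (centE b) := by
  obtain ⟨e, he⟩ := h
  have he' : ∀ w, e.symm (b w) = a (e.symm w) := fun w => e.injective (by simp [he])
  exact Nat.card_congr ⟨fun g => ⟨e.symm ≪≫ₗ g.1 ≪≫ₗ e, fun v => by simp [he', g.2 _, he]⟩,
    fun g => ⟨e ≪≫ₗ g.1 ≪≫ₗ e.symm, fun v => by simp [he', g.2 _, he]⟩, fun g => by ext; simp, fun g => by ext; simp⟩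

theorem card_centE_toLin' {n : Type*} [Fintype n] [DecidableEq n] (A : Matrix n n F) :
    Nat.card {g : GL n F // g.1 * A = A * g.1} = Nat.card (centE (Matrix.toLin' A)) :=
  Nat.card_congr ((H12.glEq n F).toEquiv.subtypeEquiv fun g => ⟨fun h v => by
    simp [H12.glEq_apply, h], fun h => H12.mat_ext_mulVec fun v => by simpa [H12.glEq_apply] using h v⟩)

section Tr
variable {m : ℕ}

local notation "ρ" => (AdjoinRoot.root ((X - 1 : F[X]) ^ (m + 1)) : Tr F (m + 1))

theorem Tr_unit {c : Tr F (m + 1)} (h : (ρ - 1) ^ m * c ≠ 0) : IsUnit c := by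
  obtain ⟨w, rfl⟩ := AdjoinRoot.mk_surjective c
  have h6 : ¬ (X - 1 : F[X]) ∣ w := by
    rintro ⟨u, rfl⟩
    refine h ?_
    rw [map_mul, map_sub, AdjoinRoot.mk_X, map_one, ← mul_assoc, ← pow_succ, Tr_pow_eq_zero.2 le_rfl, zero_mul]
  obtain ⟨u, v, huv⟩ : IsCoprime w ((X - 1) ^ (m + 1)) :=
    ((H13.irreducible_X_sub_one.coprime_iff_not_dvd.2 h6).symm).pow_right
  have h8 := congrArg (AdjoinRoot.mk ((X - 1 : F[X]) ^ (m + 1))) huv
  rw [map_add, map_mul, map_mul, AdjoinRoot.mk_self, mul_zero, add_zero, map_one] at h8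
  exact IsUnit.of_mul_eq_one_right _ h8

theorem Tr_socle {z : Tr F (m + 1)} (h : z ≠ 0) : ∃ c, c * z = (ρ - 1) ^ m := by
  classical
  have h1 : ∃ j, (ρ - 1) ^ j * z = 0 := ⟨m + 1, by rw [Tr_pow_eq_zero.2 le_rfl, zero_mul]⟩
  obtain ⟨w, rfl⟩ := AdjoinRoot.mk_surjective z
  obtain ⟨w', h5, h6⟩ := exists_eq_pow_rootMultiplicity_mul_and_not_dvd w (fun e => h (by rw [e, map_zero])) 1
  generalize rootMultiplicity 1 w = j at h5
  have h7 : j ≤ m := by
    by_contra! h'
    exact h (AdjoinRoot.mk_eq_zero.2 (h5 ▸ (pow_dvd_pow _ h').mul_right _))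
  obtain ⟨u, hu⟩ := (Tr_unit (m := m) (c := AdjoinRoot.mk _ w') fun e => h6 (by
    have : AdjoinRoot.mk ((X - 1 : F[X]) ^ (m + 1)) ((X - 1) ^ m * w') = 0 := by simpa using e
    rw [AdjoinRoot.mk_eq_zero, pow_succ] at this
    exact (mul_dvd_mul_iff_left (pow_ne_zero _ H13.irreducible_X_sub_one.ne_zero)).1 this)).exists_left_inv
  refine ⟨u * (ρ - 1) ^ (m - j), ?_⟩
  rw [h5, map_mul, map_pow, map_sub, AdjoinRoot.mk_X, C_1, map_one]
  calc _ = (ρ - 1) ^ j * (ρ - 1) ^ (m - j) * (u * AdjoinRoot.mk _ w') := by ring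
    _ = _ := by rw [hu, mul_one, ← pow_add, Nat.add_sub_cancel' h7]

variable {a : End F W} (ha : (a - 1) ^ (m + 1) = 0)

/-- the action of the truncated polynomial ring -/
noncomputable def act : Tr F (m + 1) →ₐ[F] End F W := Ideal.Quotient.liftₐ _ (aeval a) fun p hp => by
  obtain ⟨u, rfl⟩ := Ideal.mem_span_singleton.1 hp
  simp [ha]

theorem act_mk (p : F[X]) : act ha (AdjoinRoot.mk _ p) = aeval a p := rfl

theorem act_root : act ha ρ = a := (act_mk ha X).trans (aeval_X a)

theorem map_act {l : W →ₗ[F] Tr F (m + 1)} (h : ∀ y, l (a y) = ρ * l y) (c : Tr F (m + 1)) (y : W) :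
    l (act ha c y) = c * l y := by
  obtain ⟨p, rfl⟩ := AdjoinRoot.mk_surjective c
  rw [act_mk, intertwine_aeval (b := cyc _) l h, aeval_cyc_apply]

include ha in
theorem exists_homEquiv : ∃ μ : Dual F (Tr F (m + 1)), Function.Bijective
    fun l : {l : W →ₗ[F] Tr F (m + 1) // ∀ y, l (a y) = ρ * l y} => μ ∘ₗ l.1 := by
  obtain ⟨μ, hμ⟩ := Module.Projective.exists_dual_eq_one F (x := (ρ - 1) ^ m) fun h => by simpa using Tr_pow_eq_zero.1 h
  let T : Tr F (m + 1) →ₗ[F] Dual F (Tr F (m + 1)) := (LinearMap.mul F _).compr₂ μ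
  have h1 : Function.Injective T := (injective_iff_map_eq_zero T).2 fun z hz => by_contra fun h => by
    obtain ⟨c, hc⟩ := Tr_socle h
    have : μ (z * c) = 0 := DFunLike.congr_fun hz c
    rw [mul_comm, hc, hμ] at this
    exact one_ne_zero this
  let E := LinearEquiv.ofInjectiveOfFinrankEq T h1 Subspace.dual_finrank_eq.symm
  have hE : ∀ z c, E z c = μ (z * c) := fun _ _ => rfl
  refine ⟨μ, fun l l' h => Subtype.ext (LinearMap.ext fun y => h1 (LinearMap.ext fun c => ?_)), fun ν => ?_⟩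
  · have := DFunLike.congr_fun h (act ha c y)
    simpa [T, map_act ha l.2, map_act ha l'.2, mul_comm c] using this
  · let l : W →ₗ[F] Tr F (m + 1) := E.symm.toLinearMap ∘ₗ ((act ha).toLinearMap.flip.compr₂ ν)
    have hl : ∀ y c, μ (l y * c) = ν (act ha c y) := fun y c => by rw [← hE]; simp [l]
    refine ⟨⟨l, fun y => h1 (LinearMap.ext fun c => ?_)⟩, LinearMap.ext fun y => by simpa using hl y 1⟩
    change μ (_ * _) = μ (_ * _)
    rw [hl, mul_comm ρ, mul_assoc, hl, mul_comm, map_mul, act_root]; rfl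

variable [FiniteDimensional F W]

include ha in
theorem card_centE_step [Finite F] :
    Nat.card (centE ((cyc ((X - 1 : F[X]) ^ (m + 1))).prodMap a : End F (Tr F (m + 1) × W))) =
      Nat.card {v // (((cyc ((X - 1 : F[X]) ^ (m + 1))).prodMap a - 1 : End F (Tr F (m + 1) × W)) ^ m) v ≠ 0} *
        (Nat.card F ^ finrank F W * Nat.card (centE a)) := by
  set b : End F (Tr F (m + 1) × W) := (cyc ((X - 1 : F[X]) ^ (m + 1))).prodMap a with hb
  have hb' : ∀ v, b v = (ρ * v.1, a v.2) := fun _ => rfl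
  have hp : ∀ v, ((b - 1) ^ m) v = ((ρ - 1) ^ m * v.1, act ha ((ρ - 1) ^ m) v.2) := fun v => by
    rw [← H13.aeval_sub_one_pow, hb, aeval_prodMap, LinearMap.prodMap_apply, aeval_cyc_apply, ← act_mk ha]; simp
  obtain ⟨μ, hμ⟩ := exists_homEquiv ha
  let E : {l : W →ₗ[F] Tr F (m + 1) // ∀ y, l (a y) = ρ * l y} × centE a → centE b := fun z =>
    ⟨LinearEquiv.ofInjectiveEndo ((LinearMap.fst F _ _ + z.1.1 ∘ₗ LinearMap.snd F _ _).prod
      (z.2.1.toLinearMap ∘ₗ LinearMap.snd F _ _)) ((injective_iff_map_eq_zero _).2 fun v hv => by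
        have h1 : v.2 = 0 := z.2.1.map_eq_zero_iff.1 (congrArg Prod.snd hv)
        exact Prod.ext (by simpa [h1] using congrArg Prod.fst hv) h1),
      fun v => by simp [hb', z.1.2, z.2.2 _, mul_add]⟩
  have hE : ∀ z v, (E z).1 v = (v.1 + z.1.1 v.2, z.2.1 v.2) := fun _ _ => rfl
  have h1 : orbit (centE b) ((1, 0) : Tr F (m + 1) × W) = {v | ((b - 1) ^ m) v ≠ 0} := by
    have key : ∀ v : Tr F (m + 1) × W, (ρ - 1) ^ m * v.1 ≠ 0 → v ∈ orbit (centE b) ((1, 0) : Tr F (m + 1) × W) := fun v hv =>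
      ⟨⟨LinearEquiv.ofInjectiveEndo ((LinearMap.mul F _ v.1 ∘ₗ LinearMap.fst F _ _).prod
        ((act ha).toLinearMap.flip v.2 ∘ₗ LinearMap.fst F _ _ + LinearMap.snd F _ _))
          ((injective_iff_map_eq_zero _).2 fun x hx => by
            have h1 : x.1 = 0 := (Tr_unit hv).mul_right_eq_zero.1 (congrArg Prod.fst hx)
            exact Prod.ext h1 (by simpa [h1] using congrArg Prod.snd hx)),
        fun x => by simp [hb', act_root, mul_left_comm]⟩, by simp [Subgroup.smul_def]⟩
    refine Set.Subset.antisymm ?_ fun v hv => ?_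
    · rintro _ ⟨g, rfl⟩ h
      have := intertwine_aeval (a := b) (b := b) g.1.toLinearMap g.2 ((X - 1) ^ m) (1, 0)
      rw [H13.aeval_sub_one_pow, hp] at this
      have h2 := congrArg Prod.fst (g.1.map_eq_zero_iff.1 (this.trans h))
      exact absurd (Tr_pow_eq_zero.1 ((mul_one _).symm.trans h2)) (by omega)
    by_cases h : (ρ - 1) ^ m * v.1 = 0
    swap
    · exact key v h
    obtain ⟨ν, hν⟩ := Module.Projective.exists_dual_eq_one F (x := act ha ((ρ - 1) ^ m) v.2) fun e => hv (by
      rw [hp, h, e]; rfl)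
    obtain ⟨l, rfl⟩ := hμ.2 ν
    have h3 := key ((E (l, 1)).1 v) fun e => by
      rw [hE, mul_add, h, zero_add, ← map_act ha l.2] at e
      exact zero_ne_one ((μ.map_zero.symm.trans (congrArg μ e).symm).trans hν)
    exact (orbit_eq_iff.2 h3).le (mem_orbit_smul (E (l, 1)) v)
  have h2 : Function.Bijective fun z => (⟨E z, by simp [Subgroup.smul_def, hE]⟩ :
      stabilizer (centE b) ((1, 0) : Tr F (m + 1) × W)) := by
    refine ⟨fun z z' h => ?_, fun g => ?_⟩
    · have h3 := fun y => congrArg (fun g : stabilizer (centE b) _ => g.1.1 (0, y)) h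
      simp only [hE, zero_add, Prod.mk.injEq] at h3
      exact Prod.ext (Subtype.ext (LinearMap.ext fun y => (h3 y).1)) (Subtype.ext (LinearEquiv.ext fun y => (h3 y).2))
    have h3 : ∀ c, g.1.1 (c, 0) = (c, 0) := fun c => by
      obtain ⟨p, rfl⟩ := AdjoinRoot.mk_surjective c
      have := intertwine_aeval (a := b) (b := b) g.1.1.toLinearMap g.1.2 p (1, 0)
      rw [LinearEquiv.coe_coe, show g.1.1 (1, 0) = (1, 0) from g.2,
        show aeval b p (1, 0) = (AdjoinRoot.mk _ p, 0) by simp [hb, aeval_prodMap, aeval_cyc_apply]] at this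
      exact this
    have h4 : ∀ y, g.1.1 (0, a y) = b (g.1.1 (0, y)) := fun y => by simpa [hb'] using g.1.2 (0, y)
    refine ⟨(⟨LinearMap.fst F _ _ ∘ₗ g.1.1.toLinearMap ∘ₗ LinearMap.inr F _ _, fun y => by simp [h4, hb']⟩,
      ⟨LinearEquiv.ofInjectiveEndo (LinearMap.snd F _ _ ∘ₗ g.1.1.toLinearMap ∘ₗ LinearMap.inr F _ _)
        ((injective_iff_map_eq_zero _).2 fun y hy => ?_), fun y => by simp [h4, hb']⟩),
      Subtype.ext (Subtype.ext (LinearEquiv.ext fun v => ?_))⟩
    · have := g.1.1.injective ((h3 (g.1.1 (0, y)).1).trans (Prod.ext rfl (Eq.symm hy)))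
      exact (congrArg Prod.snd this).symm
    · conv_rhs => rw [← Prod.fst_add_snd v, map_add, h3]
      exact Prod.ext rfl (zero_add _).symm
  rw [← Nat.card_congr (orbitProdStabilizerEquivGroup _ ((1, 0) : Tr F (m + 1) × W)), Nat.card_prod, h1,
    ← Nat.card_eq_of_bijective _ h2, Nat.card_prod, Nat.card_eq_of_bijective _ hμ,
    Module.natCard_eq_pow_finrank (K := F) (V := Dual F W), Subspace.dual_finrank_eq]
  rfl

end Tr

theorem card_apply_ne_zero [Finite F] [FiniteDimensional F V] (f : End F V) :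
    Nat.card {v // f v ≠ 0} = Nat.card F ^ finrank F V - Nat.card F ^ finrank F (LinearMap.ker f) := by
  classical
  have := Module.finite_of_finite F (M := V)
  have := Fintype.ofFinite V
  rw [← Module.natCard_eq_pow_finrank, ← Module.natCard_eq_pow_finrank]
  simp only [Nat.card_eq_fintype_card]
  exact Fintype.card_subtype_compl (f · = 0)

/-- the order of `GL_m(q)` -/
def glc (q m : ℕ) : ℕ := ∏ j : Fin m, (q ^ m - q ^ (j : ℕ))

theorem glc_succ (q m : ℕ) : glc q (m + 1) = (q ^ (m + 1) - 1) * (q ^ m * glc q m) := by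
  simp only [glc, Fin.prod_univ_succ, Fin.val_zero, pow_zero, Fin.val_succ, pow_succ' q, ← Nat.mul_sub, Finset.prod_mul_distrib]
  simp

theorem sum_count {M : Multiset ℕ} {L : ℕ} (h : ∀ k ∈ M, k < L) : ∑ i ∈ Finset.range L, i * M.count i = M.sum := by
  rw [Finset.sum_multiset_count_of_subset M (Finset.range L) fun k hk => by simpa using h k (by simpa using hk)]
  simp [mul_comm]

theorem card_centE_jt [Finite F] (L : ℕ) (M : Multiset ℕ) (h : ∀ k ∈ M, 0 < k ∧ k < L) :
    Nat.card (centE (model (M.map (H13.upp F)))) = Nat.card F ^ (2 * (∑ i ∈ Finset.range L, ∑ j ∈ Finset.range L,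
      if i < j then i * M.count i * M.count j else 0) + ∑ i ∈ Finset.range L, (i - 1) * M.count i ^ 2) *
        ∏ i ∈ Finset.range L, glc (Nat.card F) (M.count i) := by
  induction hn : M.card generalizing M with
  | zero =>
    obtain rfl := Multiset.card_eq_zero.1 hn
    have : Unique (centE (model (Multiset.map (H13.upp F) 0))) := ⟨⟨1⟩, fun _ => Subtype.ext (LinearEquiv.ext fun _ =>
      funext fun i => absurd (Multiset.coe_mem (x := i)) (by simp))⟩
    rw [Nat.card_unique]
    simp [show ∀ q, glc q 0 = 1 from fun _ => rfl]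
  | succ n ih =>
    obtain ⟨D, hD, h1⟩ := Multiset.exists_max_image (s := M) id (by rintro rfl; simp at hn)
    obtain ⟨M, rfl⟩ := Multiset.exists_cons_of_mem hD
    obtain ⟨D, rfl⟩ : ∃ E, D = E + 1 := Nat.exists_eq_add_of_le' (h D hD).1
    have h0 : ∀ k ∈ M, 0 < k ∧ k < L := fun k hk => h k (Multiset.mem_cons_of_mem hk)
    obtain ⟨h2, h3⟩ := H13.jt_of_ed (fun k hk => (h0 k hk).1) (ed_eq_iff.2 (Sim.refl (model (M.map (H13.upp F)))))
    have h4 : ed ((cyc ((X - 1 : F[X]) ^ (D + 1))).prodMap (model (M.map (H13.upp F))) : End F (Tr F (D + 1) × _)) =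
        ((D + 1) ::ₘ M).map (H13.upp F) := by
      rw [ed_prodMap, ed_eq_iff.2 (Sim.refl _), show ed (cyc ((X - 1 : F[X]) ^ (D + 1))) = _ from ed_cyc (H13.upp F (D + 1))]
      simp
    obtain ⟨h5, h6⟩ := H13.jt_of_ed (fun k hk => (h k hk).1) h4
    have h7 := H13.finrank_ker_pow h5 D
    have h8 := H13.sum_jt h5
    rw [← (ed_eq_iff.1 h4).card_centE, card_centE_step ((H13.pow_eq_zero_iff_jt h2 _).2 fun k hk =>
      h1 k (Multiset.mem_cons_of_mem (h3 ▸ hk))), ih M h0 (by simpa using hn), ← H13.sum_jt h2, h3]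
    have h9 : (((D + 1) ::ₘ M).map (min D)).sum + (M.count (D + 1) + 1) = ((D + 1) ::ₘ M).sum := by
      rw [← Multiset.count_cons_self]
      generalize (D + 1) ::ₘ M = N at h1
      induction N using Multiset.induction_on with
      | empty => simp
      | cons a N ih =>
        have := ih fun k hk => h1 k (Multiset.mem_cons_of_mem hk)
        have := h1 a (Multiset.mem_cons_self _ _)
        simp only [Multiset.map_cons, Multiset.sum_cons, Multiset.count_cons, id] at *
        split_ifs <;> omega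
    rw [card_apply_ne_zero, h7, ← h8, h6, ← h9, pow_add, ← Nat.mul_sub_one]
    have hL := Finset.mem_range.2 (h _ hD).2
    have e1 : ∏ i ∈ Finset.range L, glc (Nat.card F) (((D + 1) ::ₘ M).count i) =
        (Nat.card F ^ (M.count (D + 1) + 1) - 1) * (Nat.card F ^ M.count (D + 1) *
          ∏ i ∈ Finset.range L, glc (Nat.card F) (M.count i)) := by
      rw [← Finset.mul_prod_erase _ _ hL, ← Finset.mul_prod_erase _ _ hL, Multiset.count_cons_self, glc_succ,
        Finset.prod_congr rfl fun i hi => by rw [Multiset.count_cons_of_ne (Finset.ne_of_mem_erase hi)]]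
      ring
    have e2 : ∑ i ∈ Finset.range L, (i - 1) * ((D + 1) ::ₘ M).count i ^ 2 =
        ∑ i ∈ Finset.range L, (i - 1) * M.count i ^ 2 + D * (2 * M.count (D + 1) + 1) := by
      rw [← Finset.add_sum_erase _ _ hL, ← Finset.add_sum_erase _ _ hL, Multiset.count_cons_self,
        Finset.sum_congr rfl fun i hi => by rw [Multiset.count_cons_of_ne (Finset.ne_of_mem_erase hi)], Nat.add_sub_cancel]
      ring
    have e3 : (∑ i ∈ Finset.range L, ∑ j ∈ Finset.range L,
        if i < j then i * ((D + 1) ::ₘ M).count i * ((D + 1) ::ₘ M).count j else 0) + (D + 1) * M.count (D + 1) =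
        (∑ i ∈ Finset.range L, ∑ j ∈ Finset.range L, if i < j then i * M.count i * M.count j else 0) + M.sum := by
      rw [← sum_count fun k hk => (h0 k hk).2, ← Finset.sum_add_distrib, ← Finset.add_sum_erase _ _ hL, eq_comm,
        ← Finset.add_sum_erase _ _ hL, eq_comm, add_right_comm]
      have hc : ∀ j, D + 1 < j → M.count j = 0 := fun j hj => Multiset.count_eq_zero.2 fun hj' =>
        absurd (h1 j (Multiset.mem_cons_of_mem hj')) (by simpa using hj)
      refine congrArg₂ (fun a b : ℕ => a + b) (congrArg₂ (fun a b : ℕ => a + b) ?_ rfl) ?_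
      · refine Finset.sum_congr rfl fun j _ => if_ctx_congr Iff.rfl (fun hj => ?_) fun _ => rfl
        simp [Multiset.count_cons_of_ne hj.ne', hc j hj]
      refine Finset.sum_congr rfl fun i hi => ?_
      rw [← Finset.add_sum_erase _ _ hL, eq_comm, ← Finset.add_sum_erase _ _ hL, eq_comm, Multiset.count_cons_self,
        Multiset.count_cons_of_ne (Finset.ne_of_mem_erase hi), Finset.sum_congr rfl fun j hj => by
          rw [Multiset.count_cons_of_ne (Finset.ne_of_mem_erase hj)]]
      split_ifs with c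
      · ring
      · rw [hc i (lt_of_le_of_ne (not_lt.1 c) (Finset.ne_of_mem_erase hi).symm)]; simp
    rw [e1, e2]
    rw [Multiset.sum_cons] at h9
    generalize (∑ i ∈ Finset.range L, ∑ j ∈ Finset.range L,
        if i < j then i * ((D + 1) ::ₘ M).count i * ((D + 1) ::ₘ M).count j else 0) = x at *
    generalize (∑ i ∈ Finset.range L, ∑ j ∈ Finset.range L, if i < j then i * M.count i * M.count j else 0) = y at *
    have e4 := congrArg (Nat.card F ^ ·) (show 2 * x + (∑ i ∈ Finset.range L, (i - 1) * M.count i ^ 2 +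
      D * (2 * M.count (D + 1) + 1)) + M.count (D + 1) = (((D + 1) ::ₘ M).map (min D)).sum + M.sum +
        (2 * y + ∑ i ∈ Finset.range L, (i - 1) * M.count i ^ 2) by nlinarith)
    beta_reduce at e4
    rw [pow_add, pow_add _ _ (2 * y + _), pow_add _ _ M.sum] at e4
    rw [mul_left_comm (_ ^ (2 * x + _)), ← mul_assoc (_ ^ (2 * x + _)), e4]
    ring

theorem sim_jordanBlock (k : ℕ) (hk : 0 < k) : Sim (Matrix.toLin' (jordanBlock k F)) (cyc ((X - 1 : F[X]) ^ k)) := by
  have : Nonempty (Fin k) := ⟨⟨0, hk⟩⟩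
  have h1 : ∀ (v : Fin k → F) (i : Fin k), ((jordanBlock k F - 1).mulVec v) i =
      if h : 0 < i.1 then v ⟨i.1 - 1, by omega⟩ else 0 := fun v i => by
    rw [Matrix.mulVec, dotProduct]
    split_ifs with h
    · rw [Finset.sum_eq_single ⟨i.1 - 1, by omega⟩ (fun j _ hj => ?_) (by simp)] <;>
        simp only [jordanBlock, Matrix.sub_apply, Matrix.of_apply, Matrix.one_apply, Fin.ext_iff, ne_eq] at * <;>
        split_ifs <;> first | omega | simp
    · refine Finset.sum_eq_zero fun j _ => ?_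
      simp only [jordanBlock, Matrix.sub_apply, Matrix.of_apply, Matrix.one_apply, Fin.ext_iff]
      split_ifs <;> first | omega | simp
  have h2 : ∀ j (v : Fin k → F) (i : Fin k), i.1 < j → (((jordanBlock k F - 1) ^ j).mulVec v) i = 0 := fun j => by
    induction j with
    | zero => simp
    | succ j ih =>
      intro v i hi
      rw [pow_succ', ← Matrix.mulVec_mulVec, h1]
      split_ifs
      exacts [ih _ _ (by simp; omega), rfl]
  have h3 := finrank_ker_toLin' (jordanBlock k F - 1)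
  have h4 : finrank F (LinearMap.ker (Matrix.toLin' (jordanBlock k F - 1))) = 1 := by
    refine finrank_eq_one_iff'.2 ⟨⟨Pi.single ⟨k - 1, by omega⟩ 1, funext fun i => ?_⟩, by simp [Subtype.ext_iff], fun v =>
      ⟨v.1 ⟨k - 1, by omega⟩, Subtype.ext (funext fun i => ?_)⟩⟩
    · rw [Matrix.toLin'_apply, h1]
      split_ifs
      exacts [Pi.single_eq_of_ne (by simp [Fin.ext_iff]; omega) _, rfl]
    · by_cases h : i = ⟨k - 1, by omega⟩
      · simp [h]
      · have := (h1 v ⟨i.1 + 1, by simp [Fin.ext_iff] at h; omega⟩).symm.trans (congrFun v.2 _)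
        simpa [h] using this.symm
  have := H13.sim_cyc_of_regular (A := jordanBlock k F) ⟨k, H12.mat_ext_mulVec fun v => funext fun i => by
    simpa using h2 k v i i.2⟩ (by omega)
  rwa [Fintype.card_fin] at this

theorem med_jordanTypeMatrix {t : ℕ} (d : Fin t → ℕ) (hd : ∀ k, 1 ≤ d k) :
    med (jordanTypeMatrix d F) = (Finset.univ.val.map d).map (H13.upp F) := by
  rw [jordanTypeMatrix, med_blockDiagonal', Finset.sum_congr rfl (g := fun k => {H13.upp F (d k)}) fun k _ => ?_]
  · rw [Multiset.map_map, ← Multiset.sum_map_singleton (Multiset.map _ _), Multiset.map_map]; rfl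
  · rw [med, (sim_jordanBlock _ (hd k)).ed_eq, ← ed_cyc]
    obtain ⟨j, hj⟩ := Nat.exists_eq_add_of_le' (hd k)
    rw [hj]; rfl

end Cfsg.Agent.H28
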