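import Cfsg.Prelude.Def_LinearParabolics
import Cfsg.Agent.H4.PermChar

/-! Parabolic subgroups of the general linear group: double cosets and orders. -/

set_option autoImplicit false

namespace Cfsg.Agent.H28

open Matrix Finset MulAction Cfsg.Agent.H4

theorem inner_fix {G T : Type*} [Group G] [Fintype G] (H K : Subgroup G) (r : G → T)
    (hr : ∀ g g', r g = r g' ↔ ∃ h ∈ H, ∃ k ∈ K, g' = h * g * k) :
    classInner (fixedPointCharacter H) (fixedPointCharacter K) = Nat.card (Set.range r) := by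
  refine (classInner_permChar_permChar (G ⧸ H) (G ⧸ K)).trans (congrArg Nat.cast ?_)
  let f : (G ⧸ H) × (G ⧸ K) → T := fun z => r (z.1.out⁻¹ * z.2.out)
  have h1 : ∀ x y : G, f (x, y) = r (x⁻¹ * y) := fun x y => by
    obtain ⟨h, e1⟩ := QuotientGroup.mk_out_eq_mul H x
    obtain ⟨k, e2⟩ := QuotientGroup.mk_out_eq_mul K y
    exact ((hr _ _).2 ⟨h⁻¹, inv_mem h.2, k, k.2, by simp [e1, e2, mul_assoc]⟩).symm
  have h2 : orbitRel G ((G ⧸ H) × (G ⧸ K)) = Setoid.ker f := Setoid.ext fun ⟨x, y⟩ ⟨x', y'⟩ => by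
    induction x, y using Quotient.inductionOn₂' with | _ x y =>
    induction x', y' using Quotient.inductionOn₂' with | _ x' y' =>
    rw [Setoid.ker_def, h1, h1, eq_comm, hr, orbitRel_apply]
    constructor
    · rintro ⟨g, e⟩
      have e1 : ((g * x' : G) : G ⧸ H) = x := congrArg Prod.fst e
      have e2 : ((g * y' : G) : G ⧸ K) = y := congrArg Prod.snd e
      exact ⟨_, inv_mem (QuotientGroup.eq.1 e1), _, QuotientGroup.eq.1 e2, by group⟩
    · rintro ⟨h, hh, k, hk, e⟩
      refine ⟨x * h * x'⁻¹, Prod.ext ?_ ?_⟩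
      · exact (QuotientGroup.eq (a := x * h * x'⁻¹ * x')).2 (by simpa using hh)
      · exact (QuotientGroup.eq (a := x * h * x'⁻¹ * y')).2 (by
          rw [← mul_inv_cancel_left x y, e]; simpa [mul_assoc] using hk)
  have h3 : Set.range f = Set.range r := Set.Subset.antisymm (by rintro _ ⟨z, rfl⟩; exact ⟨_, rfl⟩)
    (by rintro _ ⟨g, rfl⟩; exact ⟨((1 : G), g), by simp [h1]⟩)
  rw [← h3, ← Nat.card_congr (Setoid.quotientKerEquivRange f), ← h2]

theorem exists_perm_of_card {α β γ : Type*} [Fintype α] [Fintype β] [DecidableEq γ] {f : α → γ} {g : β → γ}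
    (h : ∀ c, #{a | f a = c} = #{b | g b = c}) : ∃ e : α ≃ β, ∀ a, g (e a) = f a :=
  ⟨Equiv.ofFiberEquiv fun c => Fintype.equivOfCardEq (by simpa [Fintype.card_subtype] using h c),
    Equiv.ofFiberEquiv_map _⟩

variable {ι κ : Type*} [Fintype ι] [DecidableEq ι] [LinearOrder κ] (F : Type*) [Field F] (c d : ι → κ)

/-- block triangular matrices -/
def parL : Subgroup (GL ι F) where
  carrier := {g | (g : Matrix ι ι F).BlockTriangular c}
  mul_mem' := fun ha hb => Matrix.BlockTriangular.mul ha hb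
  one_mem' := Matrix.blockTriangular_one
  inv_mem' := fun {a} ha => by
    have : Invertible (a : Matrix ι ι F) := a.invertible
    change ((a⁻¹ : GL ι F) : Matrix ι ι F).BlockTriangular c
    rw [Matrix.coe_units_inv]
    exact Matrix.blockTriangular_inv_of_blockTriangular ha

/-- label preserving permutations -/
def youngL : Subgroup (Equiv.Perm ι) where
  carrier := {σ | ∀ i, c (σ i) = c i}
  mul_mem' := fun ha hb i => (ha _).trans (hb i)
  one_mem' := fun _ => rfl
  inv_mem' := fun {a} ha i => by simpa using (ha (a⁻¹ i)).symm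

/-- permutation matrices -/
def pmat : Equiv.Perm ι →* GL ι F := permMatrixHom.toHomUnits

variable {F c d}

theorem pmat_mul (σ : Equiv.Perm ι) (A : Matrix ι ι F) (i j : ι) : (pmat F σ * A : Matrix ι ι F) i j = A (σ⁻¹ i) j := by
  change (σ⁻¹.permMatrix F * A) i j = _
  rw [PEquiv.toMatrix_toPEquiv_mul]; rfl

theorem mul_pmat (σ : Equiv.Perm ι) (A : Matrix ι ι F) (i j : ι) : (A * pmat F σ : Matrix ι ι F) i j = A i (σ j) := by
  change (A * σ⁻¹.permMatrix F) i j = _
  rw [PEquiv.mul_toMatrix_toPEquiv]; rfl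

theorem pmat_mem {σ : Equiv.Perm ι} (h : σ ∈ youngL c) : pmat F σ ∈ parL F c := fun i j hij => by
  rw [← one_mul (pmat F σ : Matrix ι ι F), mul_pmat, one_apply_ne]
  rintro rfl
  exact hij.ne (h j).symm

omit [DecidableEq ι] in
theorem eq_of_le_perm {τ : Equiv.Perm ι} (h : ∀ i, c (τ i) ≤ c i) (i : ι) : c (τ i) = c i := by
  classical
  have h1 : ∀ k : ℕ, c ((τ ^ (k + 1)) i) ≤ c (τ i) := fun k => by
    induction k with
    | zero => simp
    | succ k ih => rw [pow_succ', Equiv.Perm.mul_apply]; exact (h _).trans ih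
  have := h1 (orderOf τ - 1)
  rw [Nat.sub_add_cancel (orderOf_pos τ), pow_orderOf_eq_one] at this
  exact (h i).antisymm this

theorem pmat_dc {σ σ' : Equiv.Perm ι} : (∃ h ∈ parL F c, ∃ k ∈ parL F d, pmat F σ' = h * pmat F σ * k) ↔
    ∃ h ∈ youngL c, ∃ k ∈ youngL d, σ' = h * σ * k := by
  refine ⟨?_, fun ⟨h, hh, k, hk, e⟩ => ⟨_, pmat_mem hh, _, pmat_mem hk, by simp [e]⟩⟩
  rintro ⟨p, hp, k, hk, e⟩
  obtain ⟨τ, hτ⟩ : ∃ τ : Equiv.Perm ι, ∀ i, (p : Matrix ι ι F) (τ i) i ≠ 0 := by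
    by_contra! h
    refine p.det_ne_zero ?_
    rw [det_apply']
    exact sum_eq_zero fun τ _ => let ⟨i, hi⟩ := h τ; mul_eq_zero_of_right _ (prod_eq_zero (mem_univ i) hi)
  have h1 : p = pmat F σ' * k⁻¹ * pmat F σ⁻¹ := by rw [e]; simp
  refine ⟨τ, eq_of_le_perm fun i => not_lt.1 fun h => hτ i (hp h), (σ'⁻¹ * τ * σ)⁻¹, inv_mem (eq_of_le_perm fun i =>
    not_lt.1 fun h => hτ (σ i) ?_), by group⟩
  rw [h1, Units.val_mul, Units.val_mul, mul_pmat, pmat_mul]
  simpa using inv_mem hk h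

theorem bruhat_GL {n : ℕ} (g : GL (Fin n) F) :
    ∃ σ, ∃ b ∈ parL F (id : Fin n → Fin n), ∃ b' ∈ parL F (id : Fin n → Fin n), g = b * pmat F σ * b' := by
  classical
  let low : GL (Fin n) F → Fin n → ℕ := fun g j =>
    (univ.filter fun i => (g : Matrix (Fin n) (Fin n) F) i j ≠ 0).sup Fin.val
  have l1 : ∀ (g : GL (Fin n) F) i j, (g : Matrix (Fin n) (Fin n) F) i j ≠ 0 → i.1 ≤ low g j := fun g i j h =>
    le_sup (f := fun i : Fin n => i.1) (by simpa using h)
  have l3 : ∀ (g : GL (Fin n) F) (i j : Fin n), low g j < i.1 → (g : Matrix (Fin n) (Fin n) F) i j = 0 := fun g i j h =>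
    by_contra fun h1 => h.not_ge (l1 g i j h1)
  have l2 : ∀ (g : GL (Fin n) F) j, ∃ i, (g : Matrix (Fin n) (Fin n) F) i j ≠ 0 ∧ low g j = i.1 := fun g j => by
    obtain ⟨i, hi, e⟩ := exists_mem_eq_sup (univ.filter fun i => (g : Matrix (Fin n) (Fin n) F) i j ≠ 0) (by
      by_contra h
      exact g.det_ne_zero (det_eq_zero_of_column_eq_zero j fun i => by_contra fun h1 => h ⟨i, by simpa using h1⟩))
      fun i => i.1
    exact ⟨i, by simpa using hi, e⟩
  induction h : ∑ j, low g j using Nat.strong_induction_on generalizing g with | _ m ih =>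
  choose σ h1 h2 using l2 g
  by_cases hσ : Function.Injective σ
  · let τ := Equiv.ofBijective σ (Finite.injective_iff_bijective.1 hσ)
    refine ⟨τ, g * pmat F τ⁻¹, fun i j hij => ?_, 1, one_mem _, by simp⟩
    obtain ⟨j, rfl⟩ := τ.surjective j
    rw [Units.val_mul, mul_pmat]
    by_contra h3
    exact absurd ((l1 g i j (by simpa using h3)).trans_eq (h2 j)) (not_le.2 hij)
  obtain ⟨j, k, hjk, e⟩ : ∃ j k, j < k ∧ σ j = σ k := by
    obtain ⟨j, k, e, h⟩ := Function.not_injective_iff.1 hσ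
    exact h.lt_or_gt.elim (fun h => ⟨j, k, h, e⟩) fun h => ⟨k, j, h, e.symm⟩
  let t : GL (Fin n) F := .mkOfDetNeZero (transvection j k (-(g (σ k) k / g (σ j) j)))
    (by simp [det_transvection_of_ne j k hjk.ne])
  have ht : t ∈ parL F id := fun a b hab => by
    have : ¬ (j = a ∧ k = b) := by rintro ⟨rfl, rfl⟩; exact hab.not_gt hjk
    simp [t, transvection, one_apply_ne (show a ≠ b from hab.ne'), this]
  have h3 : ∀ a b, b ≠ k → (g * t : Matrix (Fin n) (Fin n) F) a b = g a b := fun a b h => mul_transvection_apply_of_ne j k a b h _ _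
  have h4 : ∀ a, (g * t : Matrix (Fin n) (Fin n) F) a k = g a k + -(g (σ k) k / g (σ j) j) * g a j := fun a =>
    mul_transvection_apply_same j k a _ _
  refine (ih _ (h ▸ sum_lt_sum (fun a _ => ?_) ⟨k, mem_univ _, ?_⟩) (g * t) rfl).elim fun τ ⟨b, hb, b', hb', e'⟩ =>
    ⟨τ, b, hb, b' * t⁻¹, mul_mem hb' (inv_mem ht), by rw [← mul_assoc, ← e']; simp⟩
  · obtain ⟨i, a1, a2⟩ := l2 (g * t) a
    rw [a2]
    by_cases ha : a = k
    · subst ha
      by_contra h5
      rw [Units.val_mul, h4] at a1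
      refine a1 ?_
      rw [l3 g i a (not_le.1 h5), l3 g i j (by rw [h2, e, ← h2]; exact not_le.1 h5)]
      simp
    · exact l1 g i a (by rwa [Units.val_mul, h3 _ _ ha] at a1)
  · obtain ⟨i, a1, a2⟩ := l2 (g * t) k
    rw [a2]
    by_contra h5
    rw [Units.val_mul, h4] at a1
    refine a1 ?_
    rcases (not_lt.1 h5).eq_or_lt with h6 | h6
    · rw [← Fin.ext ((h2 k).symm.trans h6), ← e, neg_mul, div_mul_cancel₀ _ (h1 j), add_neg_cancel]
    · rw [l3 g i k h6, l3 g i j (by rwa [h2, e, ← h2])]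
      simp

variable [Fintype κ]

variable (c d) in
/-- the intersection matrix of a permutation -/
noncomputable def imat (σ : Equiv.Perm ι) (b : κ) : κ →₀ ℕ :=
  Finsupp.equivFunOnFinite.symm fun a => #{j | (c (σ j), d j) = (a, b)}

theorem imat_eq_iff (σ σ' : Equiv.Perm ι) :
    imat c d σ = imat c d σ' ↔ ∃ h ∈ youngL c, ∃ k ∈ youngL d, σ' = h * σ * k := by
  constructor
  · intro h
    obtain ⟨k, hk⟩ := exists_perm_of_card (f := fun j => (c (σ' j), d j)) (g := fun j => (c (σ j), d j))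
      fun z => (DFunLike.congr_fun (congrFun h z.2) z.1).symm
    refine ⟨σ' * k⁻¹ * σ⁻¹, fun i => ?_, k, fun i => congrArg Prod.snd (hk i), by group⟩
    simpa using (congrArg Prod.fst (hk (k⁻¹ (σ⁻¹ i)))).symm
  · rintro ⟨h, hh, k, hk, rfl⟩
    ext b a
    exact (card_equiv k fun j => by simp [hh _, hk _]).symm

theorem range_imat : Set.range (imat c d) = ↑({M ∈ Fintype.piFinset fun b => finsuppAntidiag univ #{j | d j = b} |
    ∑ b, M b = Finsupp.equivFunOnFinite.symm fun a => #{i | c i = a}} : Finset (κ → κ →₀ ℕ)) := by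
  ext M
  simp only [coe_filter, Fintype.mem_piFinset, mem_finsuppAntidiag, subset_univ, and_true, Set.mem_ofPred_eq,
    Finsupp.ext_iff, Finsupp.finsetSum_apply, Finsupp.equivFunOnFinite_symm_apply_apply]
  have key : ∀ (f : ι → κ × κ) (M : κ → κ →₀ ℕ), (∀ a b, M b a = #{j | f j = (a, b)}) →
      (∀ b, ∑ a, M b a = #{j | (f j).2 = b}) ∧ ∀ a, ∑ b, M b a = #{j | (f j).1 = a} := fun f M h =>
    ⟨fun b => by
      rw [card_eq_sum_card_fiberwise (f := fun j => (f j).1) (t := univ) (by simp)]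
      exact sum_congr rfl fun a _ => by rw [h, filter_filter]; simp [Prod.ext_iff, and_comm],
    fun a => by
      rw [card_eq_sum_card_fiberwise (f := fun j => (f j).2) (t := univ) (by simp)]
      exact sum_congr rfl fun b _ => by rw [h, filter_filter]; simp [Prod.ext_iff]⟩
  constructor
  · rintro ⟨σ, rfl⟩
    obtain ⟨h1, h2⟩ := key (fun j => (c (σ j), d j)) (imat c d σ) fun _ _ => rfl
    exact ⟨h1, fun a => (h2 a).trans (card_equiv σ (by simp))⟩
  · rintro ⟨h1, h2⟩
    let e : ι ≃ Σ z : κ × κ, Fin (M z.2 z.1) := Fintype.equivOfCardEq (by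
      simp only [Fintype.card_sigma, Fintype.card_fin, Fintype.sum_prod_type, h2]
      exact card_eq_sum_card_fiberwise (f := c) (by simp))
    have h3 : ∀ a b, M b a = #{j | (e j).1 = (a, b)} := fun a b => by
      rw [card_equiv e (t := {z | z.1 = (a, b)}) (by simp), ← Fintype.card_subtype,
        Fintype.card_congr (Equiv.sigmaSubtype _), Fintype.card_fin]
    obtain ⟨h4, h5⟩ := key _ M h3
    obtain ⟨τ, hτ⟩ := exists_perm_of_card (f := d) (g := fun j => (e j).1.2) fun b => (h1 b).symm.trans (h4 b)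
    obtain ⟨σ, hσ⟩ := exists_perm_of_card (f := fun j => (e j).1.1) (g := c) fun a => (h5 a).symm.trans (h2 a)
    refine ⟨σ * τ, funext fun b => Finsupp.ext fun a => ?_⟩
    rw [h3]
    exact card_equiv τ fun j => by simp [hσ, ← hτ, Prod.ext_iff]

theorem inner_young : classInner (fixedPointCharacter (youngL c)) (fixedPointCharacter (youngL d)) =
    Nat.card (Set.range (imat c d)) := inner_fix _ _ _ imat_eq_iff

theorem inner_par {n : ℕ} {c d : Fin n → κ} (hc : Monotone c) (hd : Monotone d) [Fintype (GL (Fin n) F)] :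
    classInner (fixedPointCharacter (parL F c)) (fixedPointCharacter (parL F d)) =
      Nat.card (Set.range (imat c d)) := by
  choose σ b hb b' hb' e using bruhat_GL (F := F) (n := n)
  have h1 : ∀ {c : Fin n → κ}, Monotone c → parL F id ≤ parL F c := fun hc g hg i j h => hg (hc.reflect_lt h)
  have h2 : ∀ g g', imat c d (σ g) = imat c d (σ g') ↔ ∃ h ∈ parL F c, ∃ k ∈ parL F d, g' = h * g * k := fun g g' => by
    rw [imat_eq_iff, ← pmat_dc (F := F)]
    constructor
    · rintro ⟨h, hh, k, hk, e1⟩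
      refine ⟨b g' * h * (b g)⁻¹, mul_mem (mul_mem (h1 hc (hb _)) hh) (inv_mem (h1 hc (hb _))), (b' g)⁻¹ * k * b' g',
        mul_mem (mul_mem (inv_mem (h1 hd (hb' _))) hk) (h1 hd (hb' _)), ?_⟩
      conv_lhs => rw [e g', e1]
      conv_rhs => enter [1, 2]; rw [e g]
      group
    · rintro ⟨h, hh, k, hk, e1⟩
      refine ⟨(b g')⁻¹ * h * b g, mul_mem (mul_mem (inv_mem (h1 hc (hb _))) hh) (h1 hc (hb _)), b' g * k * (b' g')⁻¹,
        mul_mem (mul_mem (h1 hd (hb' _)) hk) (inv_mem (h1 hd (hb' _))), ?_⟩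
      rw [show (b g')⁻¹ * h * b g * pmat F (σ g) * (b' g * k * (b' g')⁻¹) =
        (b g')⁻¹ * (h * (b g * pmat F (σ g) * b' g) * k) * (b' g')⁻¹ by group, ← e, ← e1]
      conv_rhs => enter [1, 2]; rw [e g']
      group
  rw [inner_fix _ _ _ h2]
  refine congrArg (fun s : Set _ => (Nat.card s : ℂ)) (Set.Subset.antisymm (by rintro _ ⟨g, rfl⟩; exact ⟨_, rfl⟩) ?_)
  rintro _ ⟨τ, rfl⟩
  exact ⟨pmat F τ, (imat_eq_iff _ _).2 (pmat_dc.1 ⟨_, h1 hc (hb _), _, h1 hd (hb' _), e _⟩)⟩

theorem card_parL [Finite F] : Nat.card (parL F c) =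
    Nat.card F ^ #{x : ι × ι | c x.1 < c x.2} * ∏ a, Nat.card (GL {i // c i = a} F) := by
  have h0 : ∀ (g : parL F c) (a : κ), ((g.1 : Matrix ι ι F).toSquareBlock c a).det ≠ 0 := fun g a =>
    prod_ne_zero_iff.1 (BlockTriangular.det_fintype g.2 ▸ g.1.det_ne_zero) a (mem_univ _)
  rw [← Fintype.card_subtype, ← Nat.card_eq_fintype_card, ← Nat.card_fun, ← Nat.card_pi, ← Nat.card_prod]
  refine Nat.card_eq_of_bijective (fun g => (fun x => g.1 x.1.1 x.1.2, fun a => .mkOfDetNeZero _ (h0 g a))) ⟨?_, ?_⟩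
  · intro g g' h
    refine Subtype.ext (Units.ext (Matrix.ext fun i j => ?_))
    rcases lt_trichotomy (c i) (c j) with h1 | h1 | h1
    · exact congrFun (congrArg Prod.fst h) ⟨(i, j), h1⟩
    · exact congrArg (fun z => (z.2 (c j)).1 ⟨i, h1⟩ ⟨j, rfl⟩) h
    · exact (g.2 h1).trans (g'.2 h1).symm
  · rintro ⟨f, g⟩
    let A : Matrix ι ι F := of fun i j => if h : c i < c j then f ⟨(i, j), h⟩ else
      if h : c i = c j then g (c j) ⟨i, h⟩ ⟨j, rfl⟩ else 0
    have h1 : A.BlockTriangular c := fun i j h => by simp [A, h.not_gt, h.ne']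
    have h2 : ∀ a, A.toSquareBlock c a = g a := fun a => Matrix.ext (by
      rintro ⟨i, hi⟩ ⟨j, rfl⟩
      simp [A, toSquareBlock_def, hi])
    refine ⟨⟨.mkOfDetNeZero A (by
      rw [h1.det_fintype]; exact prod_ne_zero_iff.2 fun a _ => h2 a ▸ (g a).det_ne_zero), h1⟩,
      Prod.ext (funext fun x => dif_pos x.2) (funext fun a => Units.ext (h2 a))⟩

end Cfsg.Agent.H28
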