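import Cfsg.Agent.H28.UniGL1

/-! The unipotent characters of the general linear group. -/

set_option autoImplicit false

namespace Cfsg.Agent.H28

open Matrix Finset Cfsg.Agent.H4

/-- `q`-factorials -/
def qf (q m : ℕ) : ℕ := ∏ j ∈ range m, ∑ l ∈ range (j + 1), q ^ l

theorem qf_pos (q m : ℕ) : 0 < qf q m := prod_pos fun j _ => by rw [sum_range_succ']; simp

theorem card_GL_qf {ι : Type*} [Fintype ι] [DecidableEq ι] (F : Type*) [Field F] [Fintype F] : Nat.card (GL ι F) =
    Fintype.card F ^ (Fintype.card ι).choose 2 * (Fintype.card F - 1) ^ Fintype.card ι *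
      qf (Fintype.card F) (Fintype.card ι) := by
  rw [Nat.card_congr (Units.mapEquiv (reindexAlgEquiv F F (Fintype.equivFin ι)).toMulEquiv).toEquiv, card_GL_field]
  generalize Fintype.card ι = n
  rw [Fin.prod_univ_eq_prod_range (fun i => Fintype.card F ^ n - Fintype.card F ^ i), qf, ← prod_range_reflect (fun j =>
    ∑ l ∈ range (j + 1), Fintype.card F ^ l), Nat.choose_two_right, ← sum_range_id, ← prod_pow_eq_pow_sum,
    show (Fintype.card F - 1) ^ n = ∏ _ ∈ range n, (Fintype.card F - 1) by simp, ← prod_mul_distrib, ← prod_mul_distrib]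
  refine prod_congr rfl fun i hi => ?_
  rw [mem_range] at hi
  rw [mul_assoc, mul_comm (_ - 1), geom_sum_mul_of_one_le Fintype.card_pos, Nat.mul_sub, ← pow_add, mul_one,
    show i + (n - 1 - i + 1) = n by omega]

theorem index_parL {ι κ : Type*} [Fintype ι] [DecidableEq ι] [LinearOrder κ] [Fintype κ] (F : Type*) [Field F] [Fintype F]
    (c : ι → κ) : Nat.card (GL ι F ⧸ parL F c) * ∏ a, qf (Fintype.card F) #{i | c i = a} =
      qf (Fintype.card F) (Fintype.card ι) := by
  have h := Subgroup.card_eq_card_quotient_mul_card_subgroup (parL F c)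
  have h1 : ∑ a, #{i | c i = a} = Fintype.card ι := (card_eq_sum_card_fiberwise (f := c) (by simp)).symm
  have h2 : #{x : ι × ι | c x.1 < c x.2} + ∑ a, (#{i | c i = a}).choose 2 = (Fintype.card ι).choose 2 := by
    have a1 : ∀ m : ℕ, 2 * m.choose 2 + m = m * m := fun m => by
      rw [Nat.choose_two_right, Nat.mul_div_cancel' (Nat.even_mul_pred_self m).two_dvd]
      cases m <;> simp [mul_add]
    have a2 : #{x : ι × ι | c x.1 = c x.2} = ∑ a, #{i | c i = a} * #{i | c i = a} := by
      rw [card_eq_sum_card_fiberwise (f := fun x => c x.1) (t := univ) (by simp)]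
      refine sum_congr rfl fun a _ => ?_
      rw [← card_product]
      congr 1; ext x; simp; grind
    have a3 : #{x : ι × ι | c x.2 < c x.1} = #{x : ι × ι | c x.1 < c x.2} := card_equiv (Equiv.prodComm _ _) (by simp)
    have a4 : #{x : ι × ι | c x.1 < c x.2} + #{x : ι × ι | c x.1 = c x.2} + #{x : ι × ι | c x.2 < c x.1} =
        Fintype.card ι * Fintype.card ι := by
      simp only [card_filter, ← sum_add_distrib]
      rw [← Fintype.card_prod, Fintype.card_eq_sum_ones]
      exact sum_congr rfl fun x _ => by rcases lt_trichotomy (c x.1) (c x.2) with h | h | h <;> grind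
    simp only [← a1, sum_add_distrib, ← mul_sum, h1] at a2
    rw [← a1] at a4
    omega
  simp only [card_parL, card_GL_qf, Fintype.card_subtype, prod_mul_distrib, prod_pow_eq_pow_sum, h1, ← h2, pow_add,
    Nat.card_eq_fintype_card (α := F)] at h
  have h3 : 0 < Fintype.card F - 1 := Nat.sub_pos_of_lt Fintype.one_lt_card
  have h4 : 0 < Fintype.card F := Fintype.card_pos
  refine Nat.eq_of_mul_eq_mul_left (show 0 < Fintype.card F ^ #{x : ι × ι | c x.1 < c x.2} *
    Fintype.card F ^ (∑ a, (#{i | c i = a}).choose 2) * (Fintype.card F - 1) ^ Fintype.card ι by positivity) ?_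
  rw [h]; ring

variable {n : ℕ}

section labels

variable {μ : Fin n → ℕ} (hμ : ∑ i, μ i = n)

theorem lt_compLabel (a i : Fin n) : a < compLabel μ i ↔ ∑ k with k ≤ a, μ k ≤ i :=
  Tuple.lt_card_le_iff_apply_le_of_monotone (f := fun j => ∑ k with k ≤ j, μ k) fun _ _ h =>
    sum_le_sum_of_subset fun _ => by simpa using fun h1 => h1.trans h

/-- the block labels as elements of `Fin n` -/
def flab (i : Fin n) : Fin n := ⟨compLabel μ i, by
  by_contra h
  have h1 := (lt_compLabel (μ := μ) ⟨n - 1, by have := i.2; omega⟩ i).1 (by have := i.2; simp; omega)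
  rw [filter_true_of_mem fun k _ => by simpa [Fin.le_def] using Nat.le_sub_one_of_lt k.2, hμ] at h1
  exact h1.not_gt i.2⟩

theorem flab_mono : Monotone (flab hμ) := fun a b h =>
  (card_le_card fun _ => by simpa using fun h1 => h1.trans h : compLabel μ a ≤ compLabel μ b)

theorem card_flab (a : Fin n) : #{i | flab hμ i = a} = μ a := by
  have h1 : ∀ a, ∑ k with k ≤ a, #{i | flab hμ i = k} = ∑ k with k ≤ a, μ k := fun a => by
    rw [← card_eq_sum_card_fiberwise (f := flab hμ) (s := {i | flab hμ i ≤ a}) (by simp [Set.MapsTo]) |>.trans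
      (sum_congr rfl fun k hk => by rw [filter_filter, filter_congr (q := fun i => flab hμ i = k) fun i _ =>
        ⟨And.right, fun h => ⟨h ▸ (mem_filter.1 hk).2, h⟩⟩]), filter_congr (q := fun i : Fin n => i < ∑ k with k ≤ a, μ k)
      fun i _ => by rw [← not_le, ← lt_compLabel, not_lt]; rfl, Fin.card_filter_val_lt, min_eq_right]
    exact (sum_le_sum_of_subset (subset_univ _)).trans_eq hμ
  induction a using WellFoundedLT.induction with | _ a ih =>
  have h2 : univ.filter (· ≤ a) = insert a (univ.filter (· < a)) := by ext; simp [le_iff_eq_or_lt]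
  have := h1 a
  rwa [h2, sum_insert (by simp), sum_insert (by simp), sum_congr rfl fun k hk => ih k (mem_filter.1 hk).2,
    add_left_inj] at this

theorem parabolicGL_eq (F : Type*) [Field F] : parabolicGL n F μ = parL F (flab hμ) := rfl

theorem youngSubgroup_eq : youngSubgroup μ = youngL (flab hμ) :=
  Subgroup.ext fun _ => forall_congr' fun _ => ⟨fun h => Fin.ext h, congrArg Fin.val⟩

include hμ in
theorem index_parabolicGL (F : Type*) [Field F] [Fintype F] :
    Nat.card (GL (Fin n) F ⧸ parabolicGL n F μ) * ∏ a, qf (Fintype.card F) (μ a) = qf (Fintype.card F) n := by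
  simpa only [card_flab, Fintype.card_fin, parabolicGL_eq hμ] using index_parL F (flab hμ)

end labels

section poly

open MvPolynomial

/-- functions as finitely supported functions -/
noncomputable abbrev fs (α : Fin n → ℕ) : Fin n →₀ ℕ := Finsupp.equivFunOnFinite.symm α

variable (n) in
/-- complete homogeneous symmetric polynomials -/
noncomputable def hh (m : ℕ) : MvPolynomial (Fin n) ℂ := ∑ a ∈ finsuppAntidiag univ m, monomial a 1

theorem prod_X_fs (α : Fin n → ℕ) : ∏ i, (X i : MvPolynomial (Fin n) ℂ) ^ α i = monomial (fs α) 1 := by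
  rw [monomial_eq, Finsupp.prod_fintype _ _ (by simp)]; simp

theorem coeff_prod_hh {α β : Fin n → ℕ} (hα : ∑ i, α i = n) (hβ : ∑ i, β i = n) :
    coeff (fs α) (∏ j, hh n (β j)) = Nat.card (Set.range (imat (flab hα) (flab hβ))) := by
  simp only [range_imat, card_flab, hh, prod_univ_sum, ← monomial_sum_one, coeff_sum, coeff_monomial, sum_boole,
    coe_sort_coe, Nat.card_eq_fintype_card, Fintype.card_coe]

/-- the Jacobi–Trudi matrix -/
noncomputable def jtM (l : Fin n → ℕ) : Matrix (Fin n) (Fin n) (MvPolynomial (Fin n) ℂ) :=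
  of fun k i => if k ≤ l i then hh n (l i - k) else 0

theorem exists_jt : ∃ E : Matrix (Fin n) (Fin n) (MvPolynomial (Fin n) ℂ), ∀ l : Fin n → ℕ,
    (of fun j i => X j ^ l i) = E * jtM l := by
  let g : Fin n → PowerSeries (MvPolynomial (Fin n) ℂ) := fun i => .mk fun k => X i ^ k
  let e : Fin n → Polynomial (MvPolynomial (Fin n) ℂ) := fun j => ∏ i ∈ univ.erase j, (1 - .C (X i) * .X)
  have h1 : ∀ m, PowerSeries.coeff m (∏ i, g i) = hh n m := fun m => by
    simp [PowerSeries.coeff_prod, g, hh, prod_X_fs]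
  have h2 : ∀ i, (1 - .C (X i) * .X) * g i = 1 := fun i => PowerSeries.ext fun k => by
    cases k <;> simp [sub_mul, mul_assoc, g, PowerSeries.coeff_succ_X_mul, pow_succ', PowerSeries.coeff_one]
  have h3 : ∀ j, (e j : PowerSeries _) * ∏ i, g i = g j := fun j => by
    rw [← mul_prod_erase _ _ (mem_univ j), mul_left_comm, ← Polynomial.coeToPowerSeries.ringHom_apply, map_prod,
      ← prod_mul_distrib, prod_eq_one fun i _ => by simpa using h2 i, mul_one]
  have h4 : ∀ j k, n ≤ k → (e j).coeff k = 0 := fun j k h => Polynomial.coeff_eq_zero_of_natDegree_lt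
    (((Polynomial.natDegree_prod_le _ _).trans (sum_le_card_nsmul _ _ 1 fun i _ => by compute_degree)).trans_lt (by
      have := j.2; simp; omega))
  refine ⟨of fun j k => (e j).coeff k, fun l => Matrix.ext fun j i => ?_⟩
  have := congrArg (PowerSeries.coeff (l i)) (h3 j)
  simp only [PowerSeries.coeff_mul, Nat.sum_antidiagonal_eq_sum_range_succ_mk, h1, Polynomial.coeff_coe, g,
    PowerSeries.coeff_mk] at this
  simp only [mul_apply, of_apply, jtM, ← this, mul_ite, mul_zero]
  rw [Fin.sum_univ_eq_sum_range (fun k => if k ≤ l i then (e j).coeff k * hh n (l i - k) else 0), ← sum_filter]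
  refine (sum_subset (fun k => by simp) fun k h1 h2 => ?_).symm
  rw [h4 j k (by simp at h1 h2; omega), zero_mul]

theorem det_alt (l : Fin n → ℕ) : det (of fun j i : Fin n => (X j : MvPolynomial (Fin n) ℂ) ^ l i) =
    ∑ κ : Equiv.Perm (Fin n), monomial (fs fun i => l (κ i)) ((Equiv.Perm.sign κ : ℤ) : ℂ) := by
  rw [← det_transpose, det_apply']
  refine sum_congr rfl fun κ _ => ?_
  simp only [transpose_apply, of_apply, prod_X_fs]
  rw [← map_intCast (C : ℂ →+* _), C_mul_monomial, mul_one]

theorem jacobi_trudi (l : Fin n → ℕ) : det (of fun j i : Fin n => (X j : MvPolynomial (Fin n) ℂ) ^ l i) =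
    det (of fun j i : Fin n => (X j : MvPolynomial (Fin n) ℂ) ^ (i : ℕ)) * det (jtM l) := by
  obtain ⟨E, h⟩ := exists_jt (n := n)
  rw [h, h, det_mul, det_mul, det_of_isUpperTriangular (M := jtM Fin.val) fun i j h => if_neg (not_le.2 h)]
  simp [jtM, hh]

theorem coeff_alt_mul (l : Fin n → ℕ) (f : MvPolynomial (Fin n) ℂ) :
    coeff (fs l) (det (of fun j i : Fin n => (X j : MvPolynomial (Fin n) ℂ) ^ (i : ℕ)) * f) =
      ∑ κ : Equiv.Perm (Fin n), if ∀ i, (κ i : ℕ) ≤ l i then
        ((Equiv.Perm.sign κ : ℤ) : ℂ) * coeff (fs fun i => l i - κ i) f else 0 := by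
  rw [det_alt, sum_mul, coeff_sum]
  exact sum_congr rfl fun κ _ => (coeff_monomial_mul' _ _ _ _).trans (if_congr Iff.rfl (by congr; ext; rfl) rfl)

theorem det_jtM (l : Fin n → ℕ) : det (jtM l) = ∑ κ : Equiv.Perm (Fin n), if ∀ i, (κ i : ℕ) ≤ l i then
    ((Equiv.Perm.sign κ : ℤ) : ℂ) • ∏ i, hh n (l i - κ i) else 0 := by
  simp only [det_apply', jtM, of_apply, prod_ite_zero, mem_univ, true_imp_iff, mul_ite, mul_zero, prod_const_one,
    Int.cast_smul_eq_zsmul, zsmul_eq_mul]

theorem coeff_alt {l l' : Fin n → ℕ} (h : StrictMono l) (h' : StrictMono l') :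
    coeff (fs l) (det (of fun j i : Fin n => (X j : MvPolynomial (Fin n) ℂ) ^ l' i)) = if l = l' then 1 else 0 := by
  rw [det_alt, coeff_sum, sum_eq_single 1 (fun κ _ h1 => ?_) (by simp)]
  · simp [coeff_monomial, eq_comm]
  · rw [coeff_monomial, if_neg fun e => h1 (Equiv.ext fun i => StrictMono.apply_eq fun a b hab => h'.lt_iff_lt.1 ?_)]
    have := Finsupp.equivFunOnFinite.symm.injective e
    exact (congrFun this a).trans_lt ((h hab).trans_eq (congrFun this b).symm)

end poly

variable (F : Type*) [Field F] [Fintype F]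

theorem sum_sub_perm {ν : Fin n → ℕ} (hν : ∑ i, ν i = n) {κ : Equiv.Perm (Fin n)} (h : ∀ i, (κ i : ℕ) ≤ ν i + i) :
    ∑ i, (ν i + i - κ i) = n := by
  rw [sum_tsub_distrib _ fun i _ => h i, sum_add_distrib, hν, Equiv.sum_comp κ Fin.val, Nat.add_sub_cancel]

theorem uni_eq (ν : Fin n → ℕ) : unipotentCharacterGL n F ν = ∑ κ : Equiv.Perm (Fin n),
    (if ∀ i, (κ i : ℕ) ≤ ν i + i then Equiv.Perm.sign κ else 0 : ℤ) •
      fixedPointCharacter (parabolicGL n F fun i => ν i + i - κ i) := by
  ext g
  simp [unipotentCharacterGL, ite_apply]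

theorem inner_par_uni [Fintype (GL (Fin n) F)] {α ν : Fin n → ℕ} (hα : ∑ i, α i = n) (hν : ∑ i, ν i = n) :
    classInner (fixedPointCharacter (parabolicGL n F α)) (unipotentCharacterGL n F ν) =
      MvPolynomial.coeff (fs α) (det (jtM fun i => ν i + i)) := by
  rw [uni_eq, classInner_sum_right, det_jtM, MvPolynomial.coeff_sum]
  refine sum_congr rfl fun κ _ => ?_
  rw [← Int.cast_smul_eq_zsmul ℂ, classInner_smul_right, map_intCast]
  split_ifs with h
  · rw [MvPolynomial.coeff_smul, coeff_prod_hh hα (sum_sub_perm hν h), parabolicGL_eq hα,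
      parabolicGL_eq (sum_sub_perm hν h), inner_par (flab_mono _) (flab_mono _), smul_eq_mul]
  · simp

theorem inner_uni [Fintype (GL (Fin n) F)] {ν ν' : Fin n → ℕ} (h : Monotone ν) (hν : ∑ i, ν i = n) (h' : Monotone ν')
    (hν' : ∑ i, ν' i = n) :
    classInner (unipotentCharacterGL n F ν) (unipotentCharacterGL n F ν') = if ν = ν' then 1 else 0 := by
  have h1 := coeff_alt (h.add_strictMono Fin.val_strictMono) (h'.add_strictMono Fin.val_strictMono)
  rw [jacobi_trudi, coeff_alt_mul] at h1
  simp only [funext_iff, add_left_inj] at h1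
  simp only [uni_eq F ν, classInner_sum_left, funext_iff, ← h1]
  refine sum_congr rfl fun κ _ => ?_
  rw [← Int.cast_smul_eq_zsmul ℂ, classInner_smul_left]
  split_ifs with h
  · rw [inner_par_uni F (sum_sub_perm hν h) hν']
  · simp

theorem uni_one {ν : Fin n → ℕ} (hν : ∑ i, ν i = n) {q : ℕ} (hq : Fintype.card F = q) :
    unipotentCharacterGL n F ν 1 * (q : ℂ) ^ (n * (n - 1) * (n - 2) / 6) * ∏ i, (qf q (ν i + i) : ℂ) =
      qf q n * ∏ i : Fin n, ∏ j with i < j,
        (((∑ l ∈ range (ν j + j), q ^ l : ℕ) : ℂ) - ((∑ l ∈ range (ν i + i), q ^ l : ℕ) : ℂ)) := by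
  let x : ℕ → ℂ := fun k => ((∑ l ∈ range k, q ^ l : ℕ) : ℂ)
  let P : ℕ → Polynomial ℂ := fun j => ∏ k ∈ range j, (.X - .C (x k))
  have h1 := det_eval_matrixOfPolynomials_eq_det_vandermonde (fun i : Fin n => x (ν i + i)) (fun j => P j)
    (fun j => by simp [P]) fun j => Polynomial.monic_prod_X_sub_C _ _
  have h2 : ∀ m k, k ≤ m → (P k).eval (x m) * qf q (m - k) = q ^ k.choose 2 * qf q m := fun m k h => by
    induction k with
    | zero => simp [P]
    | succ k ih =>
      obtain ⟨m, rfl⟩ := Nat.exists_eq_add_of_lt h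
      have := ih (by omega)
      rw [show k + m + 1 - k = m + 1 by omega, qf, prod_range_succ, ← qf] at this
      rw [show k + m + 1 - (k + 1) = m by omega, Nat.choose_succ_succ' k 1, Nat.choose_one_right, pow_add, mul_assoc,
        ← this]
      simp only [P, x, prod_range_succ, Polynomial.eval_mul, Polynomial.eval_sub, Polynomial.eval_X, Polynomial.eval_C,
        add_assoc k, sum_range_add _ k, pow_add, ← mul_sum]
      push_cast; ring
  have h3 : n * (n - 1) * (n - 2) / 6 = ∑ i : Fin n, (i : ℕ).choose 2 := by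
    rw [Fin.sum_univ_eq_sum_range (fun i => i.choose 2), show ∑ i ∈ range n, i.choose 2 = n.choose 3 by
      clear * -; induction n with
      | zero => rfl
      | succ n ih => rw [sum_range_succ, ih, Nat.choose_succ_succ' n 2, add_comm], Nat.choose_eq_descFactorial_div_factorial]
    simp [Nat.descFactorial, Nat.factorial, mul_comm, mul_left_comm]
  rw [det_vandermonde, ← det_transpose, det_apply'] at h1
  simp only [filter_lt_eq_Ioi, x] at h1 ⊢
  rw [h1, unipotentCharacterGL, sum_mul, sum_mul, mul_sum]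
  refine sum_congr rfl fun κ _ => ?_
  split_ifs with h
  · have h4 := congrArg (Nat.cast (R := ℂ)) (index_parabolicGL (sum_sub_perm hν h) F)
    rw [show ∀ H : Subgroup (GL (Fin n) F), fixedPointCharacter H 1 = _ from fun H => permChar_one (_ ⧸ H), h3, ← Equiv.sum_comp κ fun i => (i : ℕ).choose 2,
      ← prod_pow_eq_pow_sum, mul_assoc, ← prod_mul_distrib, prod_congr rfl fun i _ => (h2 _ _ (h i)).symm,
      prod_mul_distrib, ← hq, ← h4]
    simp only [transpose_apply, of_apply, x, hq]
    push_cast; ring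
  · obtain ⟨i, hi⟩ := not_forall.1 h
    rw [zero_mul, zero_mul, prod_eq_zero (mem_univ i), mul_zero, mul_zero]
    simp only [transpose_apply, of_apply, P, Polynomial.eval_prod]
    exact prod_eq_zero (mem_range.2 (not_le.1 hi)) (by simp [x, - Nat.cast_sum])

open ComplexOrder in
theorem isIrr_uni {ν : Fin n → ℕ} (h : Monotone ν) (hν : ∑ i, ν i = n) :
    IsIrrCharacter (GL (Fin n) F) (unipotentCharacterGL n F ν) := by
  classical
  refine H4.Cfsg.IsGeneralizedCharacter.isIrr_of_pos ?_ ((inner_uni F h hν h hν).trans (if_pos rfl)) ?_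
  · rw [uni_eq]
    exact isGen_sum _ _ fun κ _ => (isCharacter_permChar' _).isGen.zsmul _
  have h1 : (0 : ℂ) < (Fintype.card F : ℂ) ^ (n * (n - 1) * (n - 2) / 6) * ∏ i, (qf (Fintype.card F) (ν i + i) : ℂ) :=
    mul_pos (pow_pos (Nat.cast_pos.2 Fintype.card_pos) _) (prod_pos fun i _ => Nat.cast_pos.2 (qf_pos _ _))
  rw [eq_div_of_mul_eq h1.ne' ((mul_assoc _ _ _).symm.trans (uni_one F hν rfl))]
  refine (Complex.nonneg_iff.1 (div_nonneg (mul_nonneg (by positivity)
    (prod_nonneg fun i _ => prod_nonneg fun j hj => sub_nonneg.2 ?_)) h1.le)).1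
  exact Nat.cast_le.2 (sum_le_sum_of_subset (range_mono (add_le_add (h (mem_filter.1 hj).2.le) (mem_filter.1 hj).2.le)))

end Cfsg.Agent.H28
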